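import Cfsg.Agent.J4r.Nk

/-! Counting the fixed points of the involution and the rank. -/

set_option autoImplicit false
set_option maxRecDepth 100000
set_option linter.unusedSectionVars false

namespace CA.J4

open CA.M24 CA.Fi CA.FG CA.J4o Cfsg Subgroup Equiv
open scoped commutatorElement Pointwise

noncomputable section

def cgA : List ℕ := [nat_lit 723920058598246021965928307320991109, nat_lit 217690480023290810755183811063400721]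
def ccA : List (ℕ × ℕ × List (List ℕ)) := [(0, 3, [[1, 0, 0, 1, 1, 0, 1, 1, 0, 0], [1, 1, 0]]), (1, 3, [[0, 0, 1, 0, 1, 1], [0, 1, 1, 0, 1]]), (3, 3, [[1, 0, 0, 1, 1, 0], [0, 1, 0, 0, 1, 0], [1, 0, 0, 0, 1]]), (4, 1, [])]
def cgB : List ℕ := [nat_lit 980633100688921495399723463032242210, nat_lit 734967640709089083475636278834247781]
def ccB : List (ℕ × ℕ × List (List ℕ)) := [(0, 5, [[1, 0, 0, 0, 1, 0, 1, 0, 1], [0, 1, 1, 0, 1, 1, 0]]), (3, 4, [[1, 1, 1, 0, 0, 1, 0, 1, 1], [0, 0, 0, 1, 0, 1, 0, 0]]), (4, 4, [])]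

variable {G : Type*} [Group G] [Finite G]

namespace HM

variable {X : HM G} [hF : Fact X.Fu]

theorem cent_ge {c : ℕ} (hc : InH M24 c) {gens : List ℕ} (cert : List (ℕ × ℕ × List (List ℕ)))
    (h : allL (fun g => band (chk g) (commB g c)) gens = true) :
    sumR (fun x => bif' (Nat.beq (act c x) x) 1 0) 2048 * chainLB cert gens ≤
      Nat.card ↥(𝒩(X.V) ⊓ 𝒞[X.K ⟨_, hc.perm_mem⟩]) := by
  have t := th_K (X := X) ⟨_, hc.perm_mem⟩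
  have a := ncard_sumR (f := X.ev) (fun _ a _ b => X.ev_inj a b) (X.V ⊓ 𝒞[X.K ⟨_, hc.perm_mem⟩] : Subgroup G)
    (fun x => Nat.beq (act c x) x) (fun _ e => e.1) fun n hn => by
      have u := t.fix hn
      rw [hc.code_perm] at u
      rw [beq_iff, ← u]
      exact ⟨fun e => (mem_cent_iff.1 e.2).symm, fun e => ⟨X.ev_mem hn, mem_cent_iff.2 e.symm⟩⟩
  have b := chainLB_le cert (H := 𝒞[perm c] ⊓ M24) (gens := gens) fun g hg => by
    obtain ⟨b1, b2⟩ := band_eq_true.1 (allL_eq_true.1 h g hg)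
    obtain ⟨p, p1, rfl⟩ := inM_of_chk b1
    exact ⟨p, ⟨mem_cent_iff.2 (commB_code.1 (hc.code_perm.symm ▸ b2)), p1⟩, rfl⟩
  have i : Function.Injective X.K := fun p q e => Subtype.ext ((th_K p).unique (e ▸ th_K q))
  rw [← card_subgroupOf', ← card_map_of_injective i] at b
  rw [← a, ← Nat.card_coe_set_eq, SetLike.coe_sort_coe]
  refine (Nat.mul_le_mul_left _ b).trans (card_mul_le (inf_le_inf_right _ le_normalizer) ?_ (eq_bot_iff.2 ?_))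
  · rintro _ ⟨p, e, rfl⟩
    exact ⟨(th_K p).mem, mem_cent_iff.2 (Commute.map (Subtype.ext (mem_cent_iff.1 e).eq) X.K)⟩
  · rintro _ ⟨e, p, -, rfl⟩
    rw [show p = 1 from Subtype.ext ((th_K p).eq_one e.1), map_one]
    exact one_mem _

theorem conj_K {y : G} {p : M24} (h : X.TH y p) (a : IsConj X.z y) (p1 : p ≠ 1) :
    ∃ c ∈ 𝒩(X.V), c * X.K p * c⁻¹ = y := by
  obtain ⟨x, hx, rfl⟩ := h.div' (th_K p)
  obtain ⟨u, hu, e⟩ := (th_K p).im_of (fun e => p1 (Subtype.ext e)) (X.ev_mem hx)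
    (K_z p (Subtype.ext (h.sq (sq_of_conj X.z_sq a))) p1) a
  exact ⟨u, le_normalizer hu, by rw [e, inv_eq_of_mul_eq_one_right (X.V_sq hu)]; group⟩

variable (X)

theorem ncard_zM : {y | IsConj X.z y ∧ y ∈ 𝒩(X.V)}.ncard ≤ 1204027 := by
  have a := cent_ge (X := X) qA_in ccA (gens := cgA) (by decide +kernel)
  have b := cent_ge (X := X) qB_in ccB (gens := cgB) (by decide +kernel)
  rw [show _ * chainLB ccA cgA = 2752512 by decide +kernel] at a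
  rw [show _ * chainLB ccB cgB = 491520 by decide +kernel] at b
  have c := ncard_conj 𝒩(X.V) (X.K ⟨_, qA_in.perm_mem⟩)
  have d := ncard_conj 𝒩(X.V) (X.K ⟨_, qB_in.perm_mem⟩)
  have e := Set.ncard_le_ncard (show {y | IsConj X.z y ∧ y ∈ 𝒩(X.V)} ⊆ {y | y ∈ X.V ∧ IsConj X.z y} ∪
      ({y | ∃ c ∈ 𝒩(X.V), c * X.K ⟨_, qA_in.perm_mem⟩ * c⁻¹ = y} ∪
        {y | ∃ c ∈ 𝒩(X.V), c * X.K ⟨_, qB_in.perm_mem⟩ * c⁻¹ = y}) from fun y ⟨u, v⟩ => by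
    obtain ⟨p, hp⟩ := X.exists_TH v
    by_cases p1 : p = 1
    · exact Or.inl ⟨(p1 ▸ hp).mem_V, u⟩
    obtain ⟨k, k1, k2⟩ := conj_qAB hp.inM (hp.sq (sq_of_conj X.z_sq u)) p1
    obtain ⟨m, hm⟩ := X.TH_surj k1
    have f : ∀ q : M24, k * p * k⁻¹ = q → ∃ c ∈ 𝒩(X.V), c * X.K q * c⁻¹ = y := fun q e => by
      obtain ⟨c, c1, c2⟩ := conj_K (e ▸ hp.conj hm) ((conj_conj m).2 u) fun r => p1 (conj_eq_one_iff.1 (e.trans
        (congrArg Subtype.val r)))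
      exact ⟨m⁻¹ * c, mul_mem (inv_mem hm.mem) c1, by
        rw [mul_inv_rev, ← mul_assoc, mul_assoc m⁻¹, mul_assoc m⁻¹, c2]; group⟩
    exact Or.inr (k2.imp (f ⟨_, qA_in.perm_mem⟩) (f ⟨_, qB_in.perm_mem⟩)))
  have f := e.trans ((Set.ncard_union_le _ _).trans (Nat.add_le_add_left (Set.ncard_union_le _ _) _))
  rw [X.isV.ncard_z] at f
  rw [X.card_M] at c d
  have := Nat.mul_le_mul_left {y | ∃ c ∈ 𝒩(X.V), c * X.K ⟨_, qA_in.perm_mem⟩ * c⁻¹ = y}.ncard a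
  have := Nat.mul_le_mul_left {y | ∃ c ∈ 𝒩(X.V), c * X.K ⟨_, qB_in.perm_mem⟩ * c⁻¹ = y}.ncard b
  omega

theorem inf_eq_bot_of {g : G} (h : ∀ y ∈ X.V, IsConj X.z y → y ∉ 𝒩(X.V :^ g)) : X.V ⊓ 𝒩(X.V :^ g) = ⊥ :=
  eq_bot_iff.2 fun y ⟨a, b⟩ => by
    rcases X.inv_cases (X.V_sq a) with e | e | e
    exacts [e, absurd b (h y a e), by
      have c : g⁻¹ * y * g ∈ 𝒩(X.V) := mem_conjg.1 ((conjg_norm X.V g).ge b)
      have s : ∀ u : G, u * y * u⁻¹ * (u * y * u⁻¹) = 1 := fun u => by rw [← cjm, X.V_sq a]; simp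
      rcases X.inv_M c (by simpa using s g⁻¹) with d | ⟨m, m1, m2⟩
      · exact absurd (X.isV.uniq (X.isV.conjg g) e a (mem_conjg.2 d) ▸ le_normalizer X.z_mem_V)
          (h _ X.z_mem_V (IsConj.refl _))
      obtain ⟨k, k1, k2⟩ := X.EE_conj_V m2 (by simpa [mul_assoc] using s (m * g⁻¹))
      have f := X.isV.uniq (X.isV.conjg (g * m⁻¹ * k⁻¹)) e a (mem_conjg.2 (by simpa [mul_assoc] using k2))
      refine absurd (le_normalizer (conj_mem_conjg g (conj_mem_of_mem_norm (inv_mem m1) X.z_mem_V)))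
        (h _ (f ▸ mem_conjg.2 ?_) ((conj_conj _).2 ((conj_conj _).2 (IsConj.refl _))))
      simpa [mul_assoc] using (by rw [conj_eq_iff_commute.2 k1.symm]; exact X.z_mem_V : k * X.z * k⁻¹ ∈ X.V)]

theorem del5 {g2 g6 : G} (h2 : Nat.card ↥(𝒩(X.V) ⊓ 𝒩(X.V :^ g2)) ≤ 17694720) (e2 : X.EE ≤ 𝒩(X.V :^ g2))
    (h6 : Nat.card ↥(𝒩(X.V) ⊓ 𝒩(X.V :^ g6)) = 6072) : ∃ g : G, X.V ⊓ 𝒩(X.V :^ g) = ⊥ ∧
      (g : G ⧸ 𝒩(X.V)) ∉ MulAction.orbit 𝒩(X.V) (g6 : G ⧸ 𝒩(X.V)) := by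
  have := Fintype.ofFinite (G ⧸ 𝒩(X.V))
  have a := fix_mul 𝒩(X.V) X.z
  have b := sum_fix 𝒩(X.V) (S := {y | y ∈ X.V ∧ IsConj X.z y}) fun _ e => e.2
  have c := X.ncard_zM
  have o2 := ncard_orbit 𝒩(X.V) 𝒩(X.V) g2
  have o6 := ncard_orbit 𝒩(X.V) 𝒩(X.V) g6
  have n := ncard_sumR (f := X.ev) (N := 128) (fun _ a _ b => X.ev_inj (by omega) (by omega))
    {y | ∃ x < 128, zc x = true ∧ X.ev x = y} zc (fun _ ⟨x, a, _, b⟩ => ⟨x, a, b⟩) fun n hn =>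
      ⟨fun ⟨x, a, b, c⟩ => X.ev_inj (by omega) (by omega) c ▸ b, fun e => ⟨n, hn, e, rfl⟩⟩
  rw [show sumR _ 128 = 91 by decide +kernel] at n
  rw [X.card_M, X.card_H] at a
  rw [X.isV.ncard_z] at b
  rw [conjg_norm, X.card_M] at o2 o6
  obtain ⟨q, q1, q2⟩ := exists_zero (fun q : G ⧸ 𝒩(X.V) => {y | y ∈ {y | y ∈ X.V ∧ IsConj X.z y} ∧ y • q = q}.ncard)
    (MulAction.orbit 𝒩(X.V) (g2 : G ⧸ 𝒩(X.V))) (MulAction.orbit 𝒩(X.V) (g6 : G ⧸ 𝒩(X.V))) 90 (by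
      rintro _ ⟨m, rfl⟩
      refine n.ge.trans (Set.ncard_le_ncard_of_injOn (fun y => m * y * (m : G)⁻¹) ?_ fun a _ b _ e => by simpa using e)
      rintro _ ⟨x, x1, x2, rfl⟩
      refine ⟨⟨conj_mem_of_mem_norm m.2 (X.ev_mem (by omega)), (conj_conj _).2 ((X.zc_iff (by omega)).2 x2)⟩, ?_⟩
      change (_ : G) • (m : G) • (g2 : G ⧸ 𝒩(X.V)) = (m : G) • (g2 : G ⧸ 𝒩(X.V))
      rw [mul_smul, inv_smul_smul, mul_smul, smul_mk_iff.2 ((conjg_norm X.V g2).ge (e2 (X.ev_EE x1)))]) (by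
      rw [b, ← index_eq_card, X.idxM]
      have := Nat.mul_le_mul_left (MulAction.orbit 𝒩(X.V) (g2 : G ⧸ 𝒩(X.V))).ncard h2
      rw [h6] at o6
      omega)
  obtain ⟨g, rfl⟩ := QuotientGroup.mk_surjective q
  rw [Set.ncard_eq_zero] at q2
  exact ⟨g, X.inf_eq_bot_of fun y a b c => Set.eq_empty_iff_forall_notMem.1 q2 y
    ⟨⟨a, b⟩, smul_mk_iff.2 ((conjg_norm X.V g).ge c)⟩, q1⟩

theorem rank7 : ∃ b : Fin 7 → G, ∀ i, ![1, 15180, 28336, 3400320, 32643072, 54405120, 82575360] i *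
    Nat.card ↥(𝒩(X.V) ⊓ 𝒩(X.V :^ b i)) = Nat.card 𝒩(X.V) := by
  obtain ⟨g1, a1, b1⟩ := X.del1
  obtain ⟨g2, a2, b2, c2⟩ := X.del2
  obtain ⟨g3, a3, b3⟩ := X.del3
  obtain ⟨g4, a4, b4⟩ := X.del4
  obtain ⟨g6, a6, b6⟩ := X.del6
  obtain ⟨g5, a5, c5⟩ := X.del5 b2 c2 b6
  have b5 := (card_K (X.isV.conjg g5) a5).1
  have a0 : pcl X.V (X.V :^ 1) = 4096 := pcl_of_card (n := 2048) (by rw [conjg_one, inf_idem, X.card_V]) (by norm_num)
  have b0 : Nat.card ↥(𝒩(X.V) ⊓ 𝒩(X.V :^ 1)) ≤ 501397585920 := (card_le_of_le inf_le_left).trans X.card_M.le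
  have k : ∀ {g}, X.V ⊓ 𝒩(X.V :^ g) = ⊥ → pcl X.V (X.V :^ g) = 1 := fun e => by
    rw [pcl, if_pos (eq_bot_iff.2 ((inf_le_inf_left _ le_normalizer).trans e.le)), e, card_bot]; rfl
  refine ⟨![1, g1, g2, g3, g4, g5, g6], ?_⟩
  generalize hb : (![1, g1, g2, g3, g4, g5, g6] : Fin 7 → G) = b
  have u : ∀ i, pcl X.V (X.V :^ b i) = ![4096, 16, 4, 3, 2, 1, 1] i := by
    subst hb
    intro i
    fin_cases i
    exacts [a0, a1, a2, a3, a4, k a5, k a6]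
  have v : ∀ i, Nat.card ↥(𝒩(X.V) ⊓ 𝒩(X.V :^ b i)) ≤ ![501397585920, 33030144, 17694720, 147456, 15360, 9216, 6072] i := by
    subst hb
    intro i
    fin_cases i
    exacts [b0, b1, b2, b3, b4, b5, b6.le]
  have w : ((b 5 : G) : G ⧸ 𝒩(X.V)) ∉ MulAction.orbit 𝒩(X.V) ((b 6 : G) : G ⧸ 𝒩(X.V)) := hb ▸ c5
  have o := fun i => ncard_orbit 𝒩(X.V) 𝒩(X.V) (b i)
  simp only [conjg_norm] at o
  refine fun i => ((cover_of (fun i => MulAction.orbit 𝒩(X.V) ((b i : G) : G ⧸ 𝒩(X.V)))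
    ![1, 15180, 28336, 3400320, 32643072, 54405120, 82575360] (fun i j e => orbit_disj fun r => ?_)
    (fun i => ?_) (by rw [← index_eq_card, X.idxM]; decide)).2 i) ▸ o i
  · obtain ⟨m, m1, m2⟩ := conjg_of_orbit (MulAction.orbit_eq_iff.1 r)
    have := pcl_conjg X.V (X.V :^ b j) m
    rw [← m2, conjg_of_mem_norm m1, u, u] at this
    rcases (by decide : ∀ i j : Fin 7, ![4096, 16, 4, 3, 2, 1, 1] i = ![4096, 16, 4, 3, 2, 1, 1] j → i ≠ j →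
      i = 5 ∧ j = 6 ∨ i = 6 ∧ j = 5) i j this e with ⟨rfl, rfl⟩ | ⟨rfl, rfl⟩
    exacts [w (MulAction.orbit_eq_iff.1 r), w (MulAction.orbit_eq_iff.1 r.symm)]
  · have a := o i
    have c := (by decide : ∀ i : Fin 7, ![1, 15180, 28336, 3400320, 32643072, 54405120, 82575360] i *
      ![501397585920, 33030144, 17694720, 147456, 15360, 9216, 6072] i = 1771 * 283115520) i
    rw [X.card_M, ← c] at a
    exact Nat.le_of_mul_le_mul_right (a.ge.trans (Nat.mul_le_mul_left _ (v i)))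
      (Nat.pos_of_ne_zero fun r => by rw [r] at c; omega)

include hF in
theorem s5629 {V : Subgroup G} (hV : IsElementaryAbelian 2 V) (hc : Nat.card V = 2 ^ 11) :
    (𝒩(V)).index = 173067389 ∧ ∃ c : Fin 7 → G ⧸ 𝒩(V),
      (∀ i j, i ≠ j → MulAction.orbit 𝒩(V) (c i) ≠ MulAction.orbit 𝒩(V) (c j)) ∧
      (∀ q, ∃ i, q ∈ MulAction.orbit 𝒩(V) (c i)) ∧ (List.ofFn fun i => (MulAction.orbit 𝒩(V) (c i)).ncard) =
        [1, 15180, 28336, 3400320, 32643072, 54405120, 82575360] := by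
  obtain ⟨g, rfl⟩ := X.conj_V hV hc.ge
  obtain ⟨b, h⟩ := X.rank7
  obtain ⟨c, c1, c2, c3⟩ := rank_of b _ (by decide) h (by rw [X.idxM]; decide) g
  refine ⟨?_, c, c1, c2, by simp only [c3]; rfl⟩
  have := (𝒩(X.V :^ g)).index_mul_card
  rw [← conjg_norm, card_conjg, X.card_M, X.card_G, conjg_norm] at this
  omega

end HM

end

end CA.J4

theorem CA.J4.realizeEqnsJ4rCnt : True := by
  have := @CA.J4.cgA.eq_1
  have := @CA.J4.cgA.eq_def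
  have := @CA.J4.cgA.congr_simp
  have := @CA.J4.ccB.eq_1
  have := @CA.J4.ccB.eq_def
  have := @CA.J4.ccB.congr_simp
  have := @CA.J4.ccA.eq_1
  have := @CA.J4.ccA.eq_def
  have := @CA.J4.ccA.congr_simp
  have := @CA.J4.cgB.eq_1
  have := @CA.J4.cgB.eq_def
  have := @CA.J4.cgB.congr_simp
  trivial
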