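import Cfsg.Agent.J4r.Pt

/-! Four orbits on the conjugates of the large elementary abelian subgroup. -/

set_option autoImplicit false
set_option maxRecDepth 100000
set_option linter.unusedSectionVars false

namespace CA.J4

open CA.M24 CA.Fi CA.FG CA.J4o Cfsg Subgroup Equiv
open scoped commutatorElement Pointwise

noncomputable section

def B2 : ℕ := 11613190
def c40 : ℕ := nat_lit 984232233431490913630068531325373600
/-- exactly one of the two points lies in the set -/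
def t32 (m : ℕ) : Bool := bif' (tb m 2) (bnot (tb m 3)) (tb m 3)

theorem t32_iff {o : Finset Pt} : t32 (mask o) = true ↔ ¬ (pt 2 ∈ o ↔ pt 3 ∈ o) := by
  rw [mem_iff_mask, mem_iff_mask, idx_pt (by norm_num), idx_pt (by norm_num), ← tb_eq_true, ← tb_eq_true, t32]
  cases tb (mask o) 2 <;> cases tb (mask o) 3 <;> decide

theorem SD_fix {p : Perm Pt} (h : p ∈ SD) : p (pt 2) = pt 2 ↔ p (pt 3) = pt 3 := by
  have e : p • unmask 12 = unmask 12 := h.2
  have a : ∀ x ∈ unmask 12, p x ∈ unmask 12 := fun x hx => e ▸ Finset.smul_mem_smul_finset hx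
  rw [show unmask 12 = {pt 2, pt 3} by decide +kernel] at a
  simp only [Finset.mem_insert, Finset.mem_singleton, forall_eq_or_imp, forall_eq] at a
  exact ⟨fun b => a.2.resolve_left fun c => absurd (p.injective (b.trans c.symm)) (by decide),
    fun b => a.1.resolve_right fun c => absurd (p.injective (c.trans b.symm)) (by decide)⟩

theorem card_SD_le : Nat.card SD ≤ 3840 := by
  have := card_stab_mul_le (H := DD) (gens := [ca, ct, cu]) (by
    simp [ca_in.mono M22_le_DD, ct_in.mono M22_le_DD, cu_in]) (m := 12) (by decide) o231 (by decide +kernel)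
  rw [card_DD, show o231.length = 231 from rfl] at this
  unfold SD
  omega

theorem sdg_in : ∀ c ∈ sdg, InH SD c := fun c hc => by
  obtain ⟨a, b⟩ := (by decide +kernel : ∀ c ∈ sdg, chkD c = true ∧ mapp c 12 = 12) c hc
  obtain ⟨p, hp, rfl⟩ := inD_of_chk a
  exact ⟨p, ⟨hp, (smul_iff (by norm_num)).2 b⟩, rfl⟩

theorem card_le_list {H : Subgroup (Perm Pt)} {l : List ℕ} (h : ∀ p ∈ H, code p ∈ l) : Nat.card H ≤ l.length := by
  refine le_trans ?_ (List.toFinset_card_le l)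
  rw [← Set.ncard_coe_finset, ← SetLike.coe_sort_coe, Nat.card_coe_set_eq, ← Set.ncard_image_of_injective _ code_inj]
  exact Set.ncard_le_ncard (by rintro _ ⟨p, hp, rfl⟩; exact List.mem_toFinset.2 (h p hp))

variable {G : Type*} [Group G]

open Classical in
/-- an invariant of a pair of subgroups -/
def pcl (A B : Subgroup G) : ℕ := if A ⊓ B = ⊥ then min (Nat.card ↥(A ⊓ 𝒩(B))) 3 else 2 * Nat.card ↥(A ⊓ B)

theorem pcl_conjg (A B : Subgroup G) (g : G) : pcl (A :^ g) (B :^ g) = pcl A B := by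
  rw [pcl, ← conjg_norm, ← conjg_inf, ← conjg_inf, card_conjg, card_conjg, conjg_eq_bot, pcl]

theorem pcl_of_card {A B : Subgroup G} {n : ℕ} (h : Nat.card ↥(A ⊓ B) = n) (h1 : n ≠ 1) : pcl A B = 2 * n := by
  rw [pcl, if_neg fun e => h1 (by rw [← h, e, card_bot]), h]

namespace HM

variable [Finite G] (X : HM G) [hF : Fact X.Fu]

/-- the relative position of a conjugate of `V` and two extraspecial groups -/
structure Good (a b : G) (E F A : Subgroup G) : Prop where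
  isV : X.IsV A
  am : a ∈ A
  t1 : ∀ g ∈ F, Commute a g → g ∈ 𝒩(A) → g ∈ E
  t2 : ∀ g ∈ A, Commute b g → g ∈ E
  t3 : ∀ g ∈ A, g ∈ E → g ∈ F → g = 1 ∨ g = a

/-- there is a conjugate with invariant `c` and a stabiliser of order at most `k` -/
def Ty (c k : ℕ) : Prop := ∃ g, pcl X.V (X.V :^ g) = c ∧ Nat.card ↥(𝒩(X.V) ⊓ 𝒩(X.V :^ g)) ≤ k

theorem ptV : X.PtO X.V (unmask O0) := ⟨1, Commute.one_right _, (conjg_one _).symm, by rw [X.π_one, one_smul]⟩

theorem card_zp {K : Subgroup G} (h : ∀ y ∈ K, y = 1 ∨ y = X.z) (z : X.z ∈ K) : Nat.card K = 2 := by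
  rw [show K = zpowers X.z from le_antisymm (fun y e => X.es.mem_zpowers.2 (h y e)) (zpowers_le.2 z), Nat.card_zpowers,
    X.orderOf_z]

variable {X}

theorem Ty.of {A B : Subgroup G} (a : X.IsV A) (b : X.IsV B) {c k : ℕ} (h : pcl A B = c)
    (e : Nat.card ↥(𝒩(A) ⊓ 𝒩(B)) ≤ k) : X.Ty c k := by
  obtain ⟨g, rfl⟩ := a
  obtain ⟨u, rfl⟩ := b
  have : X.V :^ u = (X.V :^ (g⁻¹ * u)) :^ g := by rw [← conjg_mul, mul_inv_cancel_left]
  rw [this] at h e
  rw [← conjg_norm, ← conjg_norm (_ :^ _), ← conjg_inf, card_conjg] at e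
  exact ⟨_, pcl_conjg _ _ g ▸ h, e⟩

theorem Good.conj {a b : G} {E F A : Subgroup G} (h : X.Good a b E F A) (k : G) :
    X.Good (k * a * k⁻¹) (k * b * k⁻¹) (E :^ k) (F :^ k) (A :^ k) where
  isV := h.isV.conjg k
  am := conj_mem_conjg k h.am
  t1 := by
    rintro _ ⟨g, e, rfl⟩ c n
    rw [← conjg_norm] at n
    exact conj_mem_conjg k (h.t1 g e (commute_conj_iff.1 c) (conj_mem_conjg_iff.1 n))
  t2 := by
    rintro _ ⟨g, e, rfl⟩ c
    exact conj_mem_conjg k (h.t2 g e (commute_conj_iff.1 c))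
  t3 := by
    rintro _ ⟨g, e, rfl⟩ c d
    rcases h.t3 g e (conj_mem_conjg_iff.1 c) (conj_mem_conjg_iff.1 d) with rfl | rfl
    exacts [Or.inl (map_one _), Or.inr rfl]

theorem Good.sw {A : Subgroup G} (h : X.Good X.z X.zp X.EE X.EP A) : X.Good X.zp X.z X.EP X.EE (A :^ X.sw) := by
  have := h.conj X.sw
  rwa [X.sw_z, X.sw_zp, X.EP_sw] at this

theorem PtO.mem_W {A : Subgroup G} {o : Finset Pt} (h : X.PtO A o) {g : G} (a : g ∈ A) (b : g ∈ X.EE) (c : g ∈ X.EP) :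
    ∃ x < 64, ∃ j : ℕ, g = X.s (ap BW x) * X.z ^ j ∧ Nat.land (gm (ap BW x)) (mask o) = gm (ap BW x) := by
  obtain ⟨x, hx, j, rfl⟩ := X.EE_EP.ge ⟨b, c⟩
  exact ⟨x, hx, j, rfl, ((h.mem_s (ap_lt _ _) j).1 a).2⟩

theorem PtO.good {A : Subgroup G} {o : Finset Pt} (h : X.PtO A o) (e : t32 (mask o) = true) :
    X.Good X.z X.zp X.EE X.EP A where
  isV := h.isV
  am := h.z_mem
  t1 g a z n := by
    have k := h.all (q := fun o => bimp (t32 o) (allL (fun r => bimp (Nat.beq (mapp r o) o) (Nat.beq r pone)) R32))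
      (by decide +kernel)
    simp only [bimp_eq_true, allL_eq_true, beq_iff] at k
    exact X.EE_of_EP a z (code_inj ((k e _ (X.π_EP a z) (by rw [mapp_code, (h.norm z).1 n])).trans code_one.symm))
  t2 g a c := (h.π_mem a).resolve_right fun f => t32_iff.1 e (by
    rw [← f, mem_fixS, mem_fixS]; exact SD_fix (π_SD (h.zc a) c))
  t3 g a b c := by
    obtain ⟨x, hx, j, rfl, f⟩ := h.mem_W a b c
    have k := h.all (q := fun o => bimp (t32 o) (allR (fun x => force (gm (ap BW x)) fun m =>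
      bimp (Nat.beq (Nat.land m o) m) (Nat.beq x 0)) 64)) (by decide +kernel)
    simp only [bimp_eq_true, allR_eq_true, beq_iff, force_eq] at k
    rw [k e x hx f, ap_zero, X.s_zero, one_mul]
    exact X.z_cases j

namespace Good

variable {B : Subgroup G} (h : X.Good X.zp X.z X.EP X.EE B)
include h

theorem z_norm : X.z ∈ 𝒩(B) := h.isV.EP_le h.am X.z_EP

theorem cz {g : G} (n : g ∈ 𝒩(B)) (z : Commute X.z g) : Commute X.zp g := by
  have a := conj_mem_of_mem_norm n h.am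
  have b := X.conj_EE z X.zp_EE
  rcases h.t3 _ a (h.t2 _ a (X.z_EE b)) b with e | e
  · exact absurd (by simpa using e) X.zp_ne_one
  · exact (conj_eq_iff_commute.1 e).symm

theorem bound {A : Subgroup G} {o : Finset Pt} (a : X.PtO A o) : Nat.card ↥(𝒩(A) ⊓ 𝒩(B) ⊓ 𝒞[X.z]) ≤
    128 * Nat.card ↥(SD ⊓ MulAction.stabilizer (Perm Pt) o) := by
  have b := card_inf_le (A := X.EE ⊓ 𝒞[X.zp]) (U := 𝒩(A) ⊓ 𝒞[X.z] ⊓ 𝒞[X.zp])
    (inf_le_inf_right _ (le_inf a.EE_le X.es.le_cent)) 𝒩(B)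
  have c := (card_le_of_le (show X.EE ⊓ 𝒞[X.zp] ⊓ 𝒩(B) ≤ X.EE ⊓ X.EP from fun g e =>
    ⟨e.1.1, h.t1 g e.1.1 (mem_cent_iff.1 e.1.2).symm e.2⟩)).trans X.card_EP_le
  have d := X.card_im (K := 𝒩(A) ⊓ 𝒞[X.z] ⊓ 𝒞[X.zp]) (inf_le_left.trans inf_le_right)
  have e := card_le_of_le (show 𝒩(A) ⊓ 𝒞[X.z] ⊓ 𝒞[X.zp] ⊓ X.pre ⊥ ≤ X.EE ⊓ 𝒞[X.zp] from fun g e =>
    ⟨mem_EE_zp e.2.1 (mem_cent_iff.1 e.1.2).symm e.2.2, e.1.2⟩)
  have f := card_le_of_le (show X.im (𝒩(A) ⊓ 𝒞[X.z] ⊓ 𝒞[X.zp]) ≤ SD ⊓ MulAction.stabilizer (Perm Pt) o from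
    fun p e => by
      obtain ⟨g, hg, z, rfl⟩ := X.mem_im.1 e
      exact ⟨π_SD z (mem_cent_iff.1 hg.2).symm, (a.norm z).1 hg.1.1⟩)
  have k := card_le_of_le (show 𝒩(A) ⊓ 𝒩(B) ⊓ 𝒞[X.z] ≤ 𝒩(A) ⊓ 𝒞[X.z] ⊓ 𝒞[X.zp] ⊓ 𝒩(B) from fun g e =>
    ⟨⟨⟨e.1.1, e.2⟩, mem_cent_iff.2 (h.cz e.1.2 (mem_cent_iff.1 e.2).symm).symm⟩, e.1.2⟩)
  rw [X.card_F] at b e
  rw [← d] at b
  have := (Nat.mul_le_mul (Nat.mul_le_mul f e) c)
  omega

theorem two {A : Subgroup G} (a : X.Good X.z X.zp X.EE X.EP A) : Nat.card ↥(A ⊓ 𝒩(B)) = 2 :=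
  X.card_zp (fun y e => by
    have c := h.cz e.2 (a.isV.comm a.am e.1)
    have b := a.t2 y e.1 c
    exact a.t3 y e.1 b (h.t1 y b c e.2)) ⟨a.am, h.z_norm⟩

end Good

theorem PtO.bound {B : Subgroup G} {o : Finset Pt} (h : X.PtO B o) : Nat.card ↥(𝒩(X.V) ⊓ 𝒩(B) ⊓ 𝒞[X.z]) ≤
    24576 * Nat.card ↥(YD ⊓ MulAction.stabilizer (Perm Pt) o) := by
  rw [← X.card_pre (inf_le_left.trans YD_le)]
  refine card_le_of_le fun g e => ?_
  have z := (mem_cent_iff.1 e.2).symm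
  exact ⟨z, (X.norm_inf_le z e.1.1).2, (h.norm z).1 e.1.2⟩

theorem PtO.inf {B : Subgroup G} {o : ℕ} (h : X.PtO B (unmask o)) (l : o < 2 ^ 24) (e : o ≠ O0) {y : G} (a : y ∈ X.V)
    (b : y ∈ B) : ∃ v < 4096, ∃ j : ℕ, y = X.s v * X.z ^ j ∧ qq v = 0 ∧ Nat.land (gm v) O0 = gm v ∧
      Nat.land (gm v) o = gm v := by
  obtain ⟨v, hv, j, rfl⟩ : y ∈ X.EE := by
    by_contra c
    exact e (by rw [← mask_unmask l, ← (h.π_mem b).resolve_left c, (X.ptV.π_mem a).resolve_left c, mask_O0])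
  have c := (X.ptV.mem_s hv j).1 a
  have d := (h.mem_s hv j).1 b
  rw [mask_O0] at c
  rw [mask_unmask l] at d
  exact ⟨v, hv, j, rfl, c.1, c.2, d.2⟩

variable (X)

theorem del1 : X.Ty 16 33030144 := by
  obtain ⟨B, h⟩ := exists_pt (X := X) (c := getL c5L 0 1) (o := 9506893) (by decide +kernel)
  have e : Nat.card ↥(X.V ⊓ B) = 8 := by
    rw [← X.card_ZZ, show X.V ⊓ B = X.ZZ from le_antisymm (fun y e => ?_) (le_inf X.ZZ_le_V fun y e => ?_)]
    · obtain ⟨v, hv, j, rfl, a, b, c⟩ := h.inf (by norm_num) (by decide) e.1 e.2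
      refine X.mem_ZZ.2 ⟨v, ?_, j, rfl⟩
      exact memL_eq_true.1 (bimp_eq_true.1 (bimp_eq_true.1 (bimp_eq_true.1 (allV (by decide +kernel : allP (fun v =>
        bimp (Nat.beq (qq v) 0) (bimp (Nat.beq (Nat.land (gm v) O0) (gm v)) (bimp (Nat.beq (Nat.land (gm v) 9506893)
        (gm v)) (memL v ZV)))) 12 0 = true) hv) (beq_iff.2 a)) (beq_iff.2 b)) (beq_iff.2 c))
    · obtain ⟨v, hv, j, rfl⟩ := X.mem_ZZ.1 e
      rw [h.mem_s (ZV_lt v hv).1, mask_unmask (by norm_num)]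
      exact (by decide +kernel : ∀ v ∈ ZV, qq v = 0 ∧ Nat.land (gm v) 9506893 = gm v) v hv
  obtain ⟨n, a, b⟩ := card_orb (norm_inf (A := 𝒩(X.V) ⊓ 𝒩(B)) inf_le_left inf_le_right) ⟨X.z_mem_V, h.z_mem⟩ X.z_ne
  have c := card_stab_mul_le ygens_in (m := 9506893) (by norm_num) o60 (by decide +kernel)
  have d := h.bound
  rw [card_YD, show o60.length = 60 from rfl] at c
  rw [e] at a
  exact Ty.of X.isV h.isV (pcl_of_card e (by norm_num)) (by rw [← b]; nlinarith)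

theorem del2 : ∃ g, pcl X.V (X.V :^ g) = 4 ∧ Nat.card ↥(𝒩(X.V) ⊓ 𝒩(X.V :^ g)) ≤ 17694720 ∧
    X.EE ≤ 𝒩(X.V :^ g) := by
  obtain ⟨B, h⟩ := exists_pt (X := X) (c := h16) (o := O16) (by decide +kernel)
  have e : Nat.card ↥(X.V ⊓ B) = 2 := X.card_zp (fun y e => by
    obtain ⟨v, hv, j, rfl, a, b, c⟩ := h.inf (by decide) (by decide) e.1 e.2
    obtain rfl : v = 0 := beq_iff.1 (bimp_eq_true.1 (bimp_eq_true.1 (bimp_eq_true.1 (allV (by decide +kernel :
      allP (fun v => bimp (Nat.beq (qq v) 0) (bimp (Nat.beq (Nat.land (gm v) O0) (gm v)) (bimp (Nat.beq (Nat.land (gm v)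
        O16) (gm v)) (Nat.beq v 0)))) 12 0 = true) hv) (beq_iff.2 a)) (beq_iff.2 b)) (beq_iff.2 c))
    rw [X.s_zero, one_mul]
    exact X.z_cases j) ⟨X.z_mem_V, h.z_mem⟩
  obtain ⟨n, a, b⟩ := card_orb (norm_inf (A := 𝒩(X.V) ⊓ 𝒩(B)) inf_le_left inf_le_right) ⟨X.z_mem_V, h.z_mem⟩ X.z_ne
  have c := card_stab_mul_le ygens_in (m := O16) (by decide) o16 (by decide +kernel)
  have d := h.bound
  rw [card_YD, show o16.length = 16 from rfl] at c
  rw [e] at a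
  obtain ⟨g, rfl⟩ := h.isV
  exact ⟨g, pcl_of_card e (by norm_num), by rw [← b]; nlinarith, h.EE_le⟩

theorem exists_good : ∃ A, X.PtO A (unmask O32) ∧ X.Good X.z X.zp X.EE X.EP A := by
  obtain ⟨A, h⟩ := exists_pt (X := X) (c := h32) (o := O32) (by decide +kernel)
  exact ⟨A, h, h.good (by decide +kernel)⟩

theorem del4 : X.Ty 2 15360 := by
  obtain ⟨A, p, a⟩ := X.exists_good
  have h := a.sw
  have e := h.two a
  have k : A ⊓ A :^ X.sw = ⊥ := eq_bot_iff.2 fun y u => by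
    have z := a.isV.comm a.am u.1
    have b := h.t2 y u.2 z
    have c := a.t2 y u.1 (h.isV.comm h.am u.2)
    rcases h.t3 y u.2 b c with rfl | rfl
    exacts [one_mem _, absurd (p.zp_mem.1 u.1) (by decide +kernel)]
  obtain ⟨n, c, b⟩ := card_orb (norm_inf (A := 𝒩(A) ⊓ 𝒩(A :^ X.sw)) inf_le_left (inf_le_right.trans le_normalizer))
    ⟨a.am, h.z_norm⟩ X.z_ne
  have d := h.bound p
  have f := card_stab_mul_le sdg_in (m := O32) (by decide) o32 (by decide +kernel)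
  have := card_SD_le
  rw [show o32.length = 32 from rfl] at f
  rw [e] at c
  exact Ty.of a.isV h.isV (by rw [pcl, if_pos k, e]; rfl) (by rw [← b]; nlinarith)

theorem del3' : ∃ A B, X.IsV A ∧ X.IsV B ∧ A ⊓ B = ⊥ ∧ 3 ≤ Nat.card ↥(A ⊓ 𝒩(B)) ∧
    ∃ n < 16, ∃ k ≤ 12288, n * k = Nat.card ↥(𝒩(A) ⊓ 𝒩(B)) := by
  obtain ⟨B, -, h⟩ := X.exists_good
  obtain ⟨A, p⟩ := exists_pt (X := X) (c := h40) (o := O40) (by decide +kernel)
  replace h := h.sw
  generalize B :^ X.sw = B at h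
  have m : mask (unmask O40) = O40 := mask_unmask (by decide)
  have c8 : Nat.card (X.SB B2 2) = 8 := X.card_SB (by decide +kernel)
  refine ⟨A, B, p.isV, h.isV, eq_bot_iff.2 fun y u => ?_, ?_, ?_⟩
  · have z := p.zc u.1
    have b := h.t2 y u.2 z
    rcases p.π_mem u.1 with c | c
    · rcases h.t3 y u.2 b c with rfl | rfl
      exacts [one_mem _, absurd (p.zp_mem.1 u.1) (by decide +kernel)]
    · exact absurd (by rw [pfix_code]; exact (congrArg mask c).trans m)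
        ((by decide +kernel : ∀ r ∈ R32, pfix r ≠ O40) _ (X.π_EP b z))
  · refine le_trans (by omega) (card_le_of_le (X.SB_le' (B := B2) (k := 2) (by norm_num) ⟨p.z_mem, h.z_norm⟩
      fun i hi => ?_))
    obtain ⟨x, hx, e, a⟩ := (by decide +kernel : ∀ i < 2, ∃ x < 64, col B2 i = ap BW x ∧ qq (ap BW x) = 0 ∧
      Nat.land (gm (ap BW x)) O40 = gm (ap BW x)) i hi
    rw [e]
    exact ⟨by simpa using (p.mem_s (ap_lt BW x) 0).2 (m.symm ▸ a),
      h.isV.EP_le h.am (X.EE_EP.le ⟨x, hx, 0, by simp⟩).2⟩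
  obtain ⟨n, c, b⟩ := card_orb (norm_inf (A := 𝒩(A) ⊓ 𝒩(B)) inf_le_left (inf_le_right.trans le_normalizer))
    ⟨p.z_mem, h.z_norm⟩ X.z_ne
  have d := h.bound p
  have f := card_stab_mul_le sdg_in (m := O40) (by decide) o40 (by decide +kernel)
  have := card_SD_le
  rw [show o40.length = 40 from rfl] at f
  refine ⟨n, c.trans_le ?_, _, by omega, b⟩
  rw [← X.card_im (K := A ⊓ 𝒩(B)) fun y e => mem_cent_iff.2 (p.zc e.1).symm]
  refine (Nat.mul_le_mul (card_le_list (l := [pone, c40]) fun q e => ?_)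
    ((card_le_of_le fun y e => ?_).trans c8.le)).trans (by decide)
  · obtain ⟨y, u, z, rfl⟩ := X.mem_im.1 e
    rcases p.π_mem u.1 with c | c
    · rw [X.π_EE c, code_one]; exact List.mem_cons_self
    have s := π_SD z (h.cz u.2 z)
    simpa [(smul_iff (by norm_num)).1 s.2, (pfix_code _).trans ((congrArg mask c).trans m)] using enumFix_spec (by decide +kernel : enumG 0 12 14 16 17 0 12 14 16 17
      (fun c => bimp (Nat.beq (mapp c 12) 12) (bimp (Nat.beq (pfix c) O40) (memL c [pone, c40]))) = true) (by decide)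
      (by decide) (DD_le s.1) fun x hx => mem_fixS.1 (c ▸ (by decide +kernel : ∀ x ∈ [0, 12, 14, 16, 17],
        pt x ∈ unmask O40) x hx)
  · have c := h.cz e.1.2 e.2.1
    have b := mem_EE_zp e.2.1 c e.2.2
    obtain ⟨x, hx, j, rfl, f⟩ := p.mem_W e.1.1 b (h.t1 _ b c e.1.2)
    obtain ⟨u, hu, k⟩ := (by decide +kernel : ∀ x < 64, Nat.land (gm (ap BW x)) O40 = gm (ap BW x) →
      ∃ u < 2 ^ 2, ap BW x = ap B2 u) x hx (m ▸ f)
    exact ⟨u, hu, j, by rw [k]⟩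

end HM

end

end CA.J4

theorem CA.J4.realizeEqnsJ4rDel : True := by
  have := @CA.J4.t32.eq_1
  have := @CA.J4.t32.eq_def
  have := @CA.J4.t32.congr_simp
  have := @CA.J4.pcl.eq_1.{0}
  have := @CA.J4.pcl.eq_def.{0}
  have := @CA.J4.pcl.congr_simp.{0}
  have := @CA.J4.c40.eq_1
  have := @CA.J4.c40.eq_def
  have := @CA.J4.c40.congr_simp
  have := @CA.J4.HM.Ty.eq_1.{0}
  have := @CA.J4.HM.Ty.eq_def.{0}
  have := @CA.J4.HM.Ty.congr_simp.{0}
  have := @CA.J4.B2.eq_1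
  have := @CA.J4.B2.eq_def
  have := @CA.J4.B2.congr_simp
  trivial
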