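import Cfsg.Agent.J4o.Th
import Cfsg.Agent.J4.Gen
import Cfsg.Agent.FG.PHall
import Cfsg.Agent.Fi.Extra

/-! General lemmas on fixed points and orbits. -/

set_option autoImplicit false
set_option maxRecDepth 100000
set_option linter.unusedSectionVars false

namespace CA.J4

open CA.M24 CA.Fi CA.FG CA.J4o Cfsg Subgroup Equiv
open scoped commutatorElement Pointwise

noncomputable section

theorem exists_fix {H α : Type*} [Group H] {p : ℕ} (hp : p.Prime) (hH : IsPGroup p H) (f : H → α → α)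
    (f1 : ∀ a, f 1 a = a) (fm : ∀ g h a, f (g * h) a = f g (f h a)) {T : Set α} (hT : ∀ h, ∀ a ∈ T, f h a ∈ T)
    (hn : ¬ p ∣ T.ncard) : ∃ a ∈ T, ∀ h, f h a = a := by
  have := Fact.mk hp
  letI : MulAction H T :=
    { smul := fun h a => ⟨f h a, hT h a a.2⟩
      one_smul := fun a => Subtype.ext (f1 a)
      mul_smul := fun g h a => Subtype.ext (fm g h a) }
  obtain ⟨a, ha⟩ := hH.nonempty_fixed_point_of_prime_not_dvd_card T (by rwa [Nat.card_coe_set_eq])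
  exact ⟨a, a.2, fun h => congrArg Subtype.val (ha h)⟩

theorem ncard_sum {α : Type*} [Fintype α] (S : Set α) : S.ncard = ∑ a, ind (a ∈ S) := by
  classical
  rw [Set.ncard_eq_toFinset_card' S, Finset.card_eq_sum_ones, ← Finset.sum_subset (Finset.subset_univ S.toFinset)]
  · exact Finset.sum_congr rfl fun a h => (ind_pos (Set.mem_toFinset.1 h)).symm
  · exact fun a _ h => ind_neg fun e => h (Set.mem_toFinset.2 e)

theorem exists_zero {α : Type*} [Fintype α] (f : α → ℕ) (A B : Set α) (k : ℕ) (hA : ∀ q ∈ A, k + 1 ≤ f q)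
    (h : ∑ q, f q + B.ncard < Nat.card α + k * A.ncard) : ∃ q ∉ B, f q = 0 := by
  by_contra e
  push Not at e
  refine absurd h (not_lt.2 ?_)
  rw [← Set.ncard_univ, ncard_sum, ncard_sum, ncard_sum, Finset.mul_sum, ← Finset.sum_add_distrib,
    ← Finset.sum_add_distrib]
  refine Finset.sum_le_sum fun q _ => ?_
  rw [ind_pos (Set.mem_univ q)]
  by_cases a : q ∈ A
  · have := hA q a
    rw [ind_pos a]; omega
  · rw [ind_neg a]
    by_cases b : q ∈ B
    · rw [ind_pos b]; omega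
    · have := e q b; omega

theorem cover_of {α : Type*} [Finite α] {k : ℕ} (S : Fin k → Set α) (n : Fin k → ℕ)
    (h1 : ∀ i j, i ≠ j → Disjoint (S i) (S j)) (h2 : ∀ i, n i ≤ (S i).ncard) (h3 : ∑ i, n i = Nat.card α) :
    (∀ q, ∃ i, q ∈ S i) ∧ ∀ i, (S i).ncard = n i := by
  classical
  have := Fintype.ofFinite α
  have a : ∀ q, ∑ i, ind (q ∈ S i) ≤ 1 := fun q => by
    by_cases e : ∃ i, q ∈ S i
    · obtain ⟨i, hi⟩ := e
      rw [Finset.sum_eq_single i (fun j _ hj => ind_neg fun b => Set.disjoint_left.1 (h1 j i hj) b hi) (by simp),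
        ind_pos hi]
    · rw [Finset.sum_eq_zero fun j _ => ind_neg fun b => e ⟨j, b⟩]; omega
  have b : ∑ i, (S i).ncard = ∑ q, ∑ i, ind (q ∈ S i) := by simp only [ncard_sum]; exact Finset.sum_comm
  have c : Nat.card α = ∑ q : α, 1 := by simp
  have d := Finset.sum_le_sum fun i (_ : i ∈ Finset.univ) => h2 i
  have e := Finset.sum_le_sum fun q (_ : q ∈ Finset.univ) => a q
  refine ⟨fun q => by_contra fun r => ?_,
    fun i => ((Finset.sum_eq_sum_iff_of_le fun i _ => h2 i).1 (by omega) i (Finset.mem_univ i)).symm⟩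
  have := (Finset.sum_eq_sum_iff_of_le fun q _ => a q).1 (by omega) q (Finset.mem_univ q)
  rw [Finset.sum_eq_zero fun j _ => ind_neg fun b => r ⟨j, b⟩] at this
  omega

variable {G : Type*} [Group G] [Finite G]

theorem fix_elt {S : Subgroup G} {p : ℕ} (hp : p.Prime) (hS : IsPGrp p S) {T : Set G}
    (hT : ∀ s ∈ S, ∀ a ∈ T, s * a * s⁻¹ ∈ T) (hn : ¬ p ∣ T.ncard) : ∃ a ∈ T, a ∈ 𝒞(S) := by
  obtain ⟨a, h, e⟩ := exists_fix hp (hS.isPGroup hp) (fun s a => s * a * (s : G)⁻¹) (by simp)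
    (fun g h a => by simp [mul_assoc]) (fun s => hT s s.2) hn
  exact ⟨a, h, mem_cent_subgroup_iff.2 fun s hs => (conj_eq_iff_commute.1 (e ⟨s, hs⟩)).symm⟩

theorem fix_sub {S : Subgroup G} {p : ℕ} (hp : p.Prime) (hS : IsPGrp p S) {T : Set (Subgroup G)}
    (hT : ∀ s ∈ S, ∀ a ∈ T, a :^ s ∈ T) (hn : ¬ p ∣ T.ncard) : ∃ a ∈ T, S ≤ 𝒩(a) := by
  obtain ⟨a, h, e⟩ := exists_fix hp (hS.isPGroup hp) (fun s a => a :^ (s : G)) (by simp)
    (fun g h a => conjg_mul ..) (fun s => hT s s.2) hn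
  exact ⟨a, h, fun s hs => conjg_eq_self_iff.1 (e ⟨s, hs⟩)⟩

theorem card_inf_le {A U : Subgroup G} (h : A ≤ U) (B : Subgroup G) :
    Nat.card ↥(U ⊓ B) * Nat.card A ≤ Nat.card U * Nat.card ↥(A ⊓ B) := by
  rw [← card_inf_mul_relIndex B A, ← card_inf_mul_relIndex B U, inf_comm U, inf_comm A, mul_comm _ (B.relIndex A),
    ← mul_assoc]
  exact Nat.mul_le_mul_right _ (Nat.mul_le_mul_left _ (relIndex_le_of_le_right h (relIndex_pos B U).ne'))

theorem card_mul_le {A B U : Subgroup G} (a : A ≤ U) (b : B ≤ U) (h : A ⊓ B = ⊥) :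
    Nat.card A * Nat.card B ≤ Nat.card U := by
  have := card_inf_le a B
  rwa [inf_eq_right.2 b, h, card_bot, mul_one, mul_comm] at this

/-- a group normalising `D` and the orbit of a member of `D` -/
theorem card_orb {K D : Subgroup G} (h : K ≤ 𝒩(D)) {a : G} (ha : a ∈ D) (a1 : a ≠ 1) :
    ∃ n < Nat.card D, n * Nat.card ↥(K ⊓ 𝒞[a]) = Nat.card K := by
  refine ⟨_, ?_, ncard_conj K a⟩
  rw [← SetLike.coe_sort_coe, Nat.card_coe_set_eq]
  refine Set.ncard_lt_ncard ⟨?_, fun e => ?_⟩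
  · rintro _ ⟨c, hc, rfl⟩; exact conj_mem_of_mem_norm (h hc) ha
  · obtain ⟨c, -, e⟩ := e (one_mem D)
    exact a1 (by simpa using e)

theorem smul_mk_iff {M : Subgroup G} {y g : G} : y • (g : G ⧸ M) = g ↔ y ∈ M :^ g := by
  rw [MulAction.Quotient.smul_coe, eq_comm, QuotientGroup.eq, mem_conjg, smul_eq_mul, mul_assoc]

theorem ncard_orbit (M U : Subgroup G) (g : G) :
    (MulAction.orbit U (g : G ⧸ M)).ncard * Nat.card ↥(U ⊓ M :^ g) = Nat.card U := by
  have : MulAction.stabilizer U (g : G ⧸ M) = (M :^ g).subgroupOf U := Subgroup.ext fun _ => smul_mk_iff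
  rw [← MulAction.index_stabilizer, this, inf_comm, ← card_subgroupOf', index_mul_card]

theorem conjg_of_orbit {A : Subgroup G} {g h : G}
    (e : (h : G ⧸ 𝒩(A)) ∈ MulAction.orbit 𝒩(A) (g : G ⧸ 𝒩(A))) : ∃ m ∈ 𝒩(A), A :^ h = (A :^ g) :^ m := by
  obtain ⟨m, e⟩ := e
  refine ⟨m, m.2, ?_⟩
  rw [← conjg_mul, conjg_eq_conjg_iff]
  exact QuotientGroup.eq.1 e

theorem ncard_fix_conj (M : Subgroup G) {y z : G} (h : IsConj z y) :
    {q : G ⧸ M | y • q = q}.ncard = {q : G ⧸ M | z • q = q}.ncard := by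
  obtain ⟨c, rfl⟩ := isConj_iff.1 h
  symm
  refine Set.ncard_congr (fun q _ => c • q) (fun q e => ?_) (fun a b _ _ e => MulAction.injective c e)
    fun q e => ⟨c⁻¹ • q, ?_, by simp⟩
  · change _ • _ = _
    rw [mul_smul, inv_smul_smul, mul_smul, e]
  · change _ • _ = _
    rw [eq_inv_smul_iff, ← mul_smul, ← mul_smul, e]

theorem sum_fix (M : Subgroup G) [Fintype (G ⧸ M)] {z : G} {S : Set G} (hS : ∀ y ∈ S, IsConj z y) :
    ∑ q : G ⧸ M, {y | y ∈ S ∧ y • q = q}.ncard = S.ncard * {q : G ⧸ M | z • q = q}.ncard := by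
  have := Fintype.ofFinite G
  simp only [ncard_sum (α := G)]
  rw [Finset.sum_comm, Finset.sum_mul]
  refine Finset.sum_congr rfl fun y _ => ?_
  by_cases h : y ∈ S
  · rw [ind_pos h, one_mul, ← ncard_fix_conj M (hS y h), ncard_sum]
    exact Finset.sum_congr rfl fun q _ => ind_congr ⟨fun e => e.2, fun e => ⟨h, e⟩⟩
  · rw [ind_neg h, zero_mul]
    exact Finset.sum_eq_zero fun q _ => ind_neg fun e => h e.1

theorem fix_mul (M : Subgroup G) (z : G) : {q : G ⧸ M | z • q = q}.ncard * Nat.card M =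
    {y | IsConj z y ∧ y ∈ M}.ncard * Nat.card 𝒞[z] := by
  have := Fintype.ofFinite (G ⧸ M)
  have a := sum_fix M (S := {y | IsConj z y}) fun _ h => h
  rw [Finset.sum_congr rfl (g := fun _ => {y | IsConj z y ∧ y ∈ M}.ncard) fun q _ => ?_, Finset.sum_const,
    Finset.card_univ, ← Nat.card_eq_fintype_card, ← index_eq_card, smul_eq_mul] at a
  · refine Nat.eq_of_mul_eq_mul_left (index_pos M) ?_
    rw [← mul_assoc _ _ (Nat.card 𝒞[z]), a, mul_right_comm _ _ (Nat.card 𝒞[z]), card_class, ← M.index_mul_card]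
    ring
  · obtain ⟨g, rfl⟩ := QuotientGroup.mk_surjective q
    symm
    refine Set.ncard_congr (fun y _ => g * y * g⁻¹) (fun y e => ⟨(conj_conj g).2 e.1,
      smul_mk_iff.2 (conj_mem_conjg g e.2)⟩) (fun a b _ _ e => by simpa using e) fun y e =>
      ⟨g⁻¹ * y * g, ⟨by simpa using (conj_conj g⁻¹).2 e.1, mem_conjg.1 (smul_mk_iff.1 e.2)⟩, by group⟩

theorem orbit_disj {M : Subgroup G} {a b : G ⧸ M} (h : MulAction.orbit M a ≠ MulAction.orbit M b) :
    Disjoint (MulAction.orbit M a) (MulAction.orbit M b) := Set.disjoint_left.2 fun _ x y =>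
  h ((MulAction.orbit_eq_iff.2 x).symm.trans (MulAction.orbit_eq_iff.2 y))

/-- the statement from the orders of the stabilisers -/
theorem rank_of {A : Subgroup G} {k : ℕ} (b : Fin k → G) (n : Fin k → ℕ) (hn : Function.Injective n)
    (h : ∀ i, n i * Nat.card ↥(𝒩(A) ⊓ 𝒩(A :^ b i)) = Nat.card 𝒩(A)) (h3 : ∑ i, n i = (𝒩(A)).index) (g : G) :
    ∃ c : Fin k → G ⧸ 𝒩(A :^ g), (∀ i j, i ≠ j → MulAction.orbit 𝒩(A :^ g) (c i) ≠ MulAction.orbit 𝒩(A :^ g) (c j)) ∧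
      (∀ q, ∃ i, q ∈ MulAction.orbit 𝒩(A :^ g) (c i)) ∧ ∀ i, (MulAction.orbit 𝒩(A :^ g) (c i)).ncard = n i := by
  have c : Nat.card 𝒩(A :^ g) = Nat.card 𝒩(A) := by rw [← conjg_norm, card_conjg]
  have a : ∀ i, (MulAction.orbit 𝒩(A :^ g) ((g * b i * g⁻¹ : G) : G ⧸ 𝒩(A :^ g))).ncard = n i := fun i => by
    have := ncard_orbit 𝒩(A :^ g) 𝒩(A :^ g) (g * b i * g⁻¹)
    rw [show 𝒩(A :^ g) ⊓ 𝒩(A :^ g) :^ (g * b i * g⁻¹) = (𝒩(A) ⊓ 𝒩(A :^ b i)) :^ g by
      rw [conjg_inf, conjg_norm, conjg_norm, conjg_norm, ← conjg_mul, ← conjg_mul, inv_mul_cancel_right],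
      card_conjg, c, ← h i] at this
    exact Nat.eq_of_mul_eq_mul_right Nat.card_pos this
  have d : ∀ i j, i ≠ j → MulAction.orbit 𝒩(A :^ g) ((g * b i * g⁻¹ : G) : G ⧸ 𝒩(A :^ g)) ≠
      MulAction.orbit 𝒩(A :^ g) ((g * b j * g⁻¹ : G) : G ⧸ 𝒩(A :^ g)) := fun i j e r => e (hn (by rw [← a, ← a, r]))
  refine ⟨fun i => (g * b i * g⁻¹ : G), d, (cover_of _ n (fun i j e => orbit_disj (d i j e)) (fun i => (a i).ge)
    ?_).1, a⟩
  rw [h3, ← index_eq_card]
  exact Nat.eq_of_mul_eq_mul_right Nat.card_pos ((index_mul_card _).trans (c ▸ index_mul_card _).symm)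

end

end CA.J4
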