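import Cfsg.Agent.J4r.Odd

/-! Pairs of conjugates in general position. -/

set_option autoImplicit false
set_option maxRecDepth 100000
set_option linter.unusedSectionVars false

namespace CA.J4

open CA.M24 CA.Fi CA.FG CA.J4o Cfsg Subgroup Equiv
open scoped commutatorElement Pointwise

noncomputable section

theorem card_cent_le {H : Subgroup (Perm Pt)} (hH : H ≤ M24) {q : Perm Pt} {p : ℕ} (hp : p.Prime) (h9 : 9 ≤ p)
    (hq : orderOf q = p) (hc : ∀ h ∈ H, Commute h q) : Nat.card H ≤ 24 := by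
  obtain ⟨q1, q2⟩ := of_orderOf hq hp.ne_one
  obtain ⟨w, hw⟩ : ∃ w, q w ≠ w := not_forall.1 fun e => q2 (Perm.ext e)
  have k : H ⊓ MulAction.stabilizer (Perm Pt) w = ⊥ := eq_bot_iff.2 fun h e => eq_one_of_nine (hH e.1) (by
    rw [← Finset.card_range 9]
    refine Finset.card_le_card_of_injOn (fun i => (q ^ i) w) (fun i _ => Finset.mem_coe.2 (mem_fixS.2 ?_))
      fun i a j b e => ?_
    · rw [← Perm.mul_apply, ((hc h e.1).pow_right i).eq, Perm.mul_apply, show h w = w from e.2]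
    wlog l : i ≤ j generalizing i j
    · exact (this j b i a e.symm (by omega)).symm
    obtain ⟨k, rfl⟩ := Nat.exists_eq_add_of_le l
    have b := Finset.mem_range.1 (Finset.mem_coe.1 b)
    by_contra f
    refine pow_apply_ne q1 hw (k := k) (Nat.coprime_of_lt_prime (by omega) (by omega) hp).symm ((q ^ i).injective ?_)
    rw [← Perm.mul_apply, ← pow_add]
    exact e.symm)
  rw [card_eq_orb_mul H w, k, card_bot, mul_one, ← card_Pt, ← Nat.card_eq_fintype_card, ← Set.ncard_univ]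
  exact Set.ncard_le_ncard (Set.subset_univ _)

set_option synthInstance.maxSize 100000 in
theorem num_K {n : ℕ} (h : n ∣ 244823040) (h5 : ¬ 5 ∣ n) (h7 : ¬ 7 ∣ n) (h27 : ¬ 27 ∣ n)
    (h11 : 11 ∣ n → n / 11 % 11 ∣ 10 ∧ n / 11 % 11 ∣ n ∧ n ≠ 11264)
    (h23 : 23 ∣ n → n / 23 % 23 ∣ 22 ∧ n / 23 % 23 ∣ n ∧ ¬ 2 ∣ n / 23 % 23 ∧ n ≠ 13248) :
    n ≤ 9216 ∧ (23 ∣ n → n ≤ 552 ∨ n = 6072) := by
  rw [show 244823040 = 2 ^ 10 * (3 ^ 3 * (5 ^ 1 * (7 ^ 1 * (11 ^ 1 * 23 ^ 1)))) by norm_num] at h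
  simp only [Nat.dvd_mul, Nat.dvd_prime_pow Nat.prime_two, Nat.dvd_prime_pow Nat.prime_three,
    Nat.dvd_prime_pow Nat.prime_five, Nat.dvd_prime_pow (show Nat.Prime 7 by norm_num),
    Nat.dvd_prime_pow (show Nat.Prime 11 by norm_num), Nat.dvd_prime_pow (show Nat.Prime 23 by norm_num)] at h
  obtain ⟨_, _, ⟨a, ha, rfl⟩, ⟨_, _, ⟨b, hb, rfl⟩, ⟨_, _, ⟨c, hc, rfl⟩, ⟨_, _, ⟨d, hd, rfl⟩,
    ⟨_, _, ⟨e, he, rfl⟩, ⟨f, hf, rfl⟩, rfl⟩, rfl⟩, rfl⟩, rfl⟩, rfl⟩ := h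
  revert a b c d e f
  decide +kernel

variable {G : Type*} [Group G] [Finite G]

theorem syl_loc {K : Subgroup G} {x : G} {p : ℕ} (hp : p.Prime) (hx : x ∈ K) (h : orderOf x = p)
    (c : Nat.card ↥(K ⊓ 𝒞[x]) = p) (h2 : ¬ p * p ∣ Nat.card K) :
    Nat.card ↥(𝒩(zpowers x) ⊓ K) = p * (Nat.card K / p % p) ∧ Nat.card K / p % p ∣ p - 1 ∧
      (Nat.card K / p % p = 1 → ∃ L ≤ K, x ∈ 𝒩(L) ∧ Nat.card L * p = Nat.card K) := by
  have o := (Nat.card_zpowers x).trans h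
  have s := sylow_of_sq hp o (zpowers_le.2 hx) h2
  rw [inf_comm, ← cent_zpowers] at c
  have a := card_norm_of hp o s (q := Nat.card K / p) (by
    rw [c, Nat.mul_div_cancel' (h ▸ orderOf_dvd_card_of_mem hx)])
  have b := card_inf_mul_relIndex 𝒞(zpowers x) (𝒩(zpowers x) ⊓ K)
  rw [← inf_assoc, inf_eq_left.2 (cent_le_norm _), a] at b
  refine ⟨c ▸ a, Nat.eq_of_mul_eq_mul_left Nat.card_pos b ▸ relIndex_cent_dvd_pred hp o inf_le_left, fun e => ?_⟩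
  rw [e, mul_one] at a
  have d := CA.BG.Burnside_normal_complement hp s (by
    rw [inf_comm, ← eq_of_le_of_card_ge (inf_le_inf_right K (cent_le_norm _)) a.le]; exact inf_le_left)
  exact ⟨_, d.left_le, d.norm (mem_zpowers x), o ▸ d.card_mul⟩

namespace HM

variable {X : HM G} [hF : Fact X.Fu]

theorem card_inv {i : G} (h : i ∈ 𝒩(X.V)) (h1 : i ∉ X.V) (h2 : i * i = 1) :
    Nat.card ↥(X.V ⊓ 𝒞[i]) = 64 ∨ Nat.card ↥(X.V ⊓ 𝒞[i]) = 128 := by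
  have a := X.card_cent_V h h1 h2
  have b := CA.TG.Four.card_le_sq X.V_elem.1 X.V_elem.2 h (by rw [pow_two, h2])
  have c := card_dvd_of_le (inf_le_left (a := X.V) (b := 𝒞[i]))
  rw [X.card_V] at b c
  obtain ⟨k, hk, e⟩ := (Nat.dvd_prime_pow (m := 11) Nat.prime_two).1 c
  rw [e] at a b ⊢
  interval_cases k <;> omega

theorem cent23 {x : G} (h : x ∈ 𝒩(X.V)) (o : orderOf x = 23) : X.V ⊓ 𝒞[x] = ⊥ := by
  obtain ⟨j, a, b, c⟩ := X.fix_card h (by norm_num) (by norm_num) o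
  rw [(by decide : ∀ j < 11, 2 ^ 11 ≡ 2 ^ j [MOD 23] → j = 0) j a c] at b
  exact card_eq_one.1 b

theorem not_1024 {L : Subgroup G} (h : L ≤ 𝒩(X.V)) (e : L ⊓ X.V = ⊥) (c : Nat.card L = 1024) {x : G} (a : x ∈ 𝒩(L))
    (b : x ∈ 𝒩(X.V)) : ¬ 11 ∣ orderOf x := by
  have k : Nat.card ↥(L ⊔ X.V) = 2 ^ 21 := by rw [card_sup_of_inf_eq_bot (Or.inl h) e, c, X.card_V]; rfl
  obtain ⟨g, -, d⟩ := sylow_Jsub Nat.prime_two X.T_syl (pGrp_of_card_eq_pow Nat.prime_two k) le_top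
  have n := conj_mem_conjg g (norm_sup (zpowers_le.2 a) (zpowers_le.2 b) (mem_zpowers x))
  rw [conjg_norm, eq_of_le_of_card_ge d (by rw [card_conjg, k, X.card_T])] at n
  rw [← orderOf_conj x g]
  generalize g * x * g⁻¹ = y at n
  have ez := X.EE_le_clo tgens
  have m := conj_mem_of_mem_norm n (ez X.z_mem)
  have z : Commute X.z y := by
    rcases X.cent_EE (mem_cent_iff.1 (X.T_le m)).symm fun u hu => commute_conj_left_iff.2
      (mem_cent_iff.1 (X.T_le (conj_mem_of_mem_norm' n (ez hu)))).symm with f | f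
    exacts [absurd (conj_eq_one_iff.1 f) X.z_ne, (conj_eq_iff_commute.1 f).symm]
  have := orderOf_dvd_card_of_mem (X.norm_inf_le z (conjg_eq_self_iff.1 (X.eq_V_of_le_T
    (conjg_le_of_mem_norm X.V_le_T n) (X.isV.conjg y).elem (X.isV.conjg y).card.ge)))
  rw [X.card_Y] at this
  exact fun r => absurd (r.trans this) (by norm_num)

variable {B : Subgroup G} (hB : X.IsV B) (h : X.V ⊓ 𝒩(B) = ⊥)
include h

theorem exists_emb : ∃ φ : ↥(𝒩(X.V) ⊓ 𝒩(B)) →* M24, Function.Injective φ := by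
  obtain ⟨θ, -, a⟩ := X.exists_θ
  refine ⟨θ.comp (inclusion inf_le_left), (injective_iff_map_eq_one _).2 fun k e => Subtype.ext ?_⟩
  have := a (inclusion inf_le_left k)
  rw [show θ _ = 1 from e] at this
  exact h.le ⟨this.mem_V, k.2.2⟩

theorem not_V {i : G} (a : i ∈ 𝒩(X.V) ⊓ 𝒩(B)) (o : orderOf i = 2) : i ∉ X.V ∧ i * i = 1 :=
  ⟨fun e => (of_orderOf o (by norm_num)).2 (h.le ⟨e, a.2⟩), by rw [← pow_two, ← o, pow_orderOf_eq_one]⟩

theorem cent_le {x : G} (hx : x ∈ 𝒩(X.V) ⊓ 𝒩(B)) {p : ℕ} (hp : p.Prime) (h9 : 9 ≤ p) (o : orderOf x = p) :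
    p ∣ Nat.card ↥(𝒩(X.V) ⊓ 𝒩(B) ⊓ 𝒞[x]) ∧ Nat.card ↥(𝒩(X.V) ⊓ 𝒩(B) ⊓ 𝒞[x]) ≤ 24 := by
  refine ⟨o ▸ orderOf_dvd_card_of_mem ⟨hx, mem_cent_singleton_self x⟩, ?_⟩
  obtain ⟨φ, i⟩ := exists_emb h
  have j : Function.Injective (M24.subtype.comp φ) := (subtype_injective _).comp i
  rw [inf_comm, ← card_subgroupOf', ← card_map_of_injective j]
  refine card_cent_le (by rintro _ ⟨k, -, rfl⟩; exact (φ k).2) hp h9 (q := M24.subtype.comp φ ⟨x, hx⟩)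
    ((orderOf_injective _ j _).trans ((orderOf_coe _).symm.trans o)) ?_
  rintro _ ⟨k, e, rfl⟩
  exact Commute.map (Subtype.ext (mem_cent_iff.1 e).eq) _

theorem cent11 {x : G} (hx : x ∈ 𝒩(X.V) ⊓ 𝒩(B)) (o : orderOf x = 11) :
    Nat.card ↥(𝒩(X.V) ⊓ 𝒩(B) ⊓ 𝒞[x]) = 11 := by
  obtain ⟨a, b⟩ := cent_le h hx (by norm_num) (by norm_num) o
  have := Nat.card_pos (α := ↥(𝒩(X.V) ⊓ 𝒩(B) ⊓ 𝒞[x]))
  by_contra e
  obtain ⟨i, hi, c⟩ := exists_mem_orderOf_eq (H := 𝒩(X.V) ⊓ 𝒩(B) ⊓ 𝒞[x]) Nat.prime_two (by omega)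
  obtain ⟨i1, i2⟩ := not_V h hi.1 c
  have d := card_mod_cent (A := X.V ⊓ 𝒞[i]) (p := 11) (by norm_num) (norm_inf (zpowers_le.2 hx.1) (zpowers_le.2
    (conjg_eq_self_iff.1 (by rw [conjg_cent1, conj_eq_iff_commute.2 (mem_cent_iff.1 hi.2).symm]))) (mem_zpowers x))
    (o ▸ pow_orderOf_eq_one x)
  obtain ⟨j, j1, j2, j3⟩ := X.fix_card hx.1 (by norm_num) (by norm_num) o
  rw [(by decide : ∀ j < 11, 2 ^ 11 ≡ 2 ^ j [MOD 11] → j = 1) j j1 j3] at j2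
  have f := card_le_of_le (inf_le_inf_right 𝒞[x] (inf_le_left (a := X.V) (b := 𝒞[i])))
  have := card_inv hi.1.1 i1 i2
  unfold Nat.ModEq at d
  omega

theorem norm23 {x : G} (hx : x ∈ 𝒩(X.V) ⊓ 𝒩(B)) (o : orderOf x = 23)
    (c : Nat.card ↥(𝒩(X.V) ⊓ 𝒩(B) ⊓ 𝒞[x]) = 23) : ¬ 2 ∣ Nat.card ↥(𝒩(zpowers x) ⊓ (𝒩(X.V) ⊓ 𝒩(B))) := fun e => by
  obtain ⟨i, hi, a⟩ := exists_mem_orderOf_eq Nat.prime_two e
  obtain ⟨i1, i2⟩ := not_V h hi.2 a
  have b := conj_mem_of_mem_norm (le_normalizer hx) hi.2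
  obtain ⟨j1, j2⟩ := not_V h b ((orderOf_conj i x).trans a)
  have iv : i⁻¹ = i := inv_eq_of_mul_eq_one_right i2
  have u : i * (x * i * x⁻¹) ∈ zpowers x := by
    have := mul_mem (conj_mem_of_mem_norm hi.1 (mem_zpowers x)) (inv_mem (mem_zpowers x))
    rwa [iv, mul_assoc i, mul_assoc i] at this
  have u1 : i * (x * i * x⁻¹) ≠ 1 := fun f => by
    have := orderOf_dvd_card_of_mem (H := 𝒩(X.V) ⊓ 𝒩(B) ⊓ 𝒞[x]) ⟨hi.2, mem_cent_iff.2 (conj_eq_iff_commute.1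
      ((eq_inv_of_mul_eq_one_right f).trans iv)).symm⟩
    rw [a, c] at this
    norm_num at this
  have k := card_mul_le (A := X.V ⊓ 𝒞[i]) (B := X.V ⊓ 𝒞[x * i * x⁻¹]) inf_le_left inf_le_left (eq_bot_iff.2 fun v f =>
    (cent23 hx.1 o).le ⟨f.1.1, by
      rw [← cent_zpowers, cent_eq_cent_singleton_of_prime (by rw [Nat.card_zpowers, o]; norm_num) u u1]
      exact mem_cent_iff.2 ((mem_cent_iff.1 f.1.2).mul_right (mem_cent_iff.1 f.2.2))⟩)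
  rw [X.card_V] at k
  rcases card_inv hi.2.1 i1 i2 with f | f <;> rcases card_inv b.1 j1 j2 with g | g <;> rw [f, g] at k <;> omega

include hB in
theorem card_K : Nat.card ↥(𝒩(X.V) ⊓ 𝒩(B)) ≤ 9216 ∧ (23 ∣ Nat.card ↥(𝒩(X.V) ⊓ 𝒩(B)) →
    Nat.card ↥(𝒩(X.V) ⊓ 𝒩(B)) ≤ 552 ∨ Nat.card ↥(𝒩(X.V) ⊓ 𝒩(B)) = 6072) := by
  have e : X.V ⊓ B = ⊥ := eq_bot_iff.2 ((inf_le_inf_left _ le_normalizer).trans h.le)
  obtain ⟨φ, i⟩ := exists_emb h
  have d := card_dvd_of_injective φ i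
  rw [card_M24] at d
  refine num_K d (fun a => ?_) (fun a => X.isV.l7 hB a e) (fun a => X.isV.l27 hB a e) (fun a => ?_) fun a => ?_
  · have := X.isV.l5 hB a e
    rw [h, card_bot] at this
    omega
  · obtain ⟨x, hx, o⟩ := exists_mem_orderOf_eq (by norm_num) a
    obtain ⟨s1, s2, s3⟩ := syl_loc (by norm_num) hx o (cent11 h hx o) fun r => absurd (r.trans d) (by norm_num)
    refine ⟨s2, (Dvd.intro_left _ s1.symm).trans (card_dvd_of_le inf_le_right), fun r => ?_⟩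
    obtain ⟨L, l1, l2, l3⟩ := s3 (by rw [r])
    exact not_1024 (l1.trans inf_le_left) (eq_bot_iff.2 fun y f => h.le ⟨f.2, (l1 f.1).2⟩) (by omega) l2 hx.1 o.symm.dvd
  · obtain ⟨x, hx, o⟩ := exists_mem_orderOf_eq (by norm_num) a
    obtain ⟨c1, c2⟩ := cent_le h hx (by norm_num) (by norm_num) o
    have c : Nat.card ↥(𝒩(X.V) ⊓ 𝒩(B) ⊓ 𝒞[x]) = 23 := by
      have := Nat.card_pos (α := ↥(𝒩(X.V) ⊓ 𝒩(B) ⊓ 𝒞[x])); omega
    obtain ⟨s1, s2, s3⟩ := syl_loc (by norm_num) hx o c fun r => absurd (r.trans d) (by norm_num)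
    refine ⟨s2, (Dvd.intro_left _ s1.symm).trans (card_dvd_of_le inf_le_right),
      fun r => norm23 h hx o c (s1 ▸ r.mul_left _), fun r => ?_⟩
    obtain ⟨L, l1, l2, l3⟩ := s3 (by rw [r])
    have l : Nat.card L = 576 := by omega
    obtain ⟨R, r1, r2⟩ := sol_coprime_Sylow_exists Nat.prime_three (Or.inr (sol_of_abelian (abelian_zpowers x)))
      (zpowers_le.2 l2) (by rw [l, Nat.card_zpowers, o]; norm_num)
    have m := card_mod_cent (by norm_num) (r2 (mem_zpowers x)) (o ▸ pow_orderOf_eq_one x : x ^ 23 = 1)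
    have r3 := card_dvd_of_le r1.le
    rw [Nat.eq_one_of_dvd_coprimes (k := Nat.card ↥(R ⊓ 𝒞[x])) (show Nat.Coprime 576 23 by norm_num)
      (l ▸ (card_dvd_of_le inf_le_left).trans r3) (c ▸ card_dvd_of_le (inf_le_inf_right _ (r1.le.trans l1)))] at m
    have r4 := (r1.dvd_card_iff Nat.prime_three rfl).2 (by rw [l]; norm_num)
    obtain ⟨k, hk⟩ := (pGrp_iff_card Nat.prime_three).1 r1.piGrp
    rw [hk] at m r3 r4
    rw [l] at r3
    have : k < 3 := by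
      by_contra f
      exact absurd ((pow_dvd_pow 3 (not_lt.1 f)).trans r3) (by norm_num)
    interval_cases k <;> simp [Nat.ModEq] at m r4

omit h
variable (X)

theorem idxM : (𝒩(X.V)).index = 173067389 := by
  have := (𝒩(X.V)).index_mul_card
  rw [X.card_M, X.card_G] at this
  omega

theorem del6 : ∃ g, X.V ⊓ 𝒩(X.V :^ g) = ⊥ ∧ Nat.card ↥(𝒩(X.V) ⊓ 𝒩(X.V :^ g)) = 6072 := by
  obtain ⟨x, hx, o⟩ := exists_mem_orderOf_eq (H := 𝒩(X.V)) (p := 23) (by norm_num) (by rw [X.card_M]; norm_num)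
  obtain ⟨q, q1, q2⟩ := exists_fix (H := zpowers x) (p := 23) (by norm_num) (IsPGroup.of_card (n := 1)
    (by rw [Nat.card_zpowers, o]; rfl)) (fun g (q : G ⧸ 𝒩(X.V)) => g.1 • q) (one_smul _) (fun a b => mul_smul a.1 b.1)
    (T := {((1 : G) : G ⧸ 𝒩(X.V))}ᶜ) (fun g a e f => e (MulAction.injective g.1 (f.trans
      (smul_mk_iff.2 (by rw [conjg_one]; exact zpowers_le.2 hx g.2)).symm))) (by
      rw [Set.ncard_compl, Set.ncard_singleton, ← index_eq_card, X.idxM]; norm_num)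
  obtain ⟨g, rfl⟩ := QuotientGroup.mk_surjective q
  have n := smul_mk_iff.1 (q2 ⟨x, mem_zpowers x⟩)
  rw [conjg_norm] at n
  have hB := X.isV.conjg g
  have e : X.V ⊓ 𝒩(X.V :^ g) = ⊥ := by
    have m := card_mod_cent (A := X.V ⊓ 𝒩(X.V :^ g)) (by norm_num) (norm_inf (zpowers_le.2 hx)
      ((zpowers_le.2 n).trans le_normalizer) (mem_zpowers x)) (o ▸ pow_orderOf_eq_one x : x ^ 23 = 1)
    rw [inf_right_comm, cent23 hx o, bot_inf_eq, card_bot] at m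
    obtain ⟨k, hk, e⟩ := (Nat.dvd_prime_pow (m := 11) Nat.prime_two).1
      (X.card_V ▸ card_dvd_of_le (inf_le_left (a := X.V) (b := 𝒩(X.V :^ g))))
    rcases (by decide : ∀ k ≤ 11, 2 ^ k ≡ 1 [MOD 23] → k = 0 ∨ k = 11) k hk (e ▸ m) with rfl | rfl
    · exact card_eq_one.1 e
    have f : X.V ≤ 𝒩(X.V :^ g) := (eq_of_le_of_card_ge inf_le_left (by rw [e, X.card_V]; rfl)).ge.trans inf_le_right
    exact absurd (QuotientGroup.eq.2 (by
      simpa using conjg_eq_self_iff.1 (X.uniq_V ((elem_pGrp X.V_elem).sup (elem_pGrp hB.elem) (Or.inl f)) le_sup_right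
        le_sup_left hB.elem hB.card.ge X.V_elem X.card_V.ge))) q1
  refine ⟨g, e, ((card_K hB e).2 (o ▸ orderOf_dvd_card_of_mem ⟨hx, n⟩)).resolve_left fun f => ?_⟩
  have a := ncard_orbit 𝒩(X.V) 𝒩(X.V) g
  have b := Set.ncard_le_ncard (Set.subset_univ (MulAction.orbit 𝒩(X.V) (g : G ⧸ 𝒩(X.V))))
  rw [Set.ncard_univ, ← index_eq_card, X.idxM] at b
  rw [conjg_norm, X.card_M] at a
  have := Nat.mul_le_mul b f
  omega

end HM

end

end CA.J4
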