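import Cfsg.Agent.J4r.Del

/-! Elements of odd order normalising two conjugates. -/

set_option autoImplicit false
set_option maxRecDepth 100000
set_option linter.unusedSectionVars false

namespace CA.J4

open CA.M24 CA.Fi CA.FG CA.J4o Cfsg Subgroup Equiv
open scoped commutatorElement Pointwise

noncomputable section

theorem fix_pair {p : Perm Pt} (h5 : p ^ 5 = 1) {a b : Pt} (h : p • ({a, b} : Finset Pt) = {a, b}) : p a = a := by
  have k : ∀ x ∈ ({a, b} : Finset Pt), p x ∈ ({a, b} : Finset Pt) := fun x hx => h ▸ Finset.smul_mem_smul_finset hx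
  simp only [Finset.mem_insert, Finset.mem_singleton, forall_eq_or_imp, forall_eq] at k
  by_contra e
  have c := k.1.resolve_left e
  refine pow_apply_ne h5 e (k := 2) (by norm_num) ?_
  rw [pow_two, Perm.mul_apply, c]
  exact k.2.resolve_right fun d => e (c.trans (p.injective (d.trans c.symm)))

theorem t32_of_five {p : Perm Pt} (hp : p ∈ SD) (h : orderOf p = 5) {o : Finset Pt} (ho : o ∈ octads)
    (h1 : Nat.land 8388609 (mask o) = 8388609) (h2 : Nat.land 12 (mask o) ≠ 12) (e : p • o = o) :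
    t32 (mask o) = true := by
  have h5 : p ^ 5 = 1 := h ▸ pow_orderOf_eq_one p
  have a : p • unmask 8388609 = unmask 8388609 := hp.1.2
  have b : p • unmask 12 = unmask 12 := hp.2
  have u : unmask 12 = {pt 2, pt 3} := by decide +kernel
  rw [← sub_iff (by norm_num)] at h1
  rw [Ne, ← sub_iff (by norm_num), u, Finset.insert_subset_iff, Finset.singleton_subset_iff] at h2
  refine t32_iff.2 fun k => ?_
  have f : unmask 8388609 ∪ unmask 12 = fixS p := Finset.eq_of_subset_of_card_le (fun x hx => by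
    rw [unmask_duad] at a hx
    rw [u] at b hx
    simp only [Finset.mem_union, Finset.mem_insert, Finset.mem_singleton] at hx
    rcases hx with (rfl | rfl) | rfl | rfl
    exacts [mem_fixS.2 (fix_pair h5 a), mem_fixS.2 (fix_pair h5 (Finset.pair_comm (pt 23) (pt 0) ▸ a)), mem_fixS.2 (fix_pair h5 b),
      mem_fixS.2 (fix_pair h5 (Finset.pair_comm (pt 2) (pt 3) ▸ b))]) (by rw [card_fix_five (DD_le hp.1) h]; decide +kernel)
  have s : zpowers p ≤ MulAction.stabilizer _ (o \ unmask 8388609) :=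
    zpowers_le.2 (by rw [MulAction.mem_stabilizer_iff, Finset.smul_finset_sdiff, a, e])
  obtain ⟨w, hw, c⟩ := exists_fix (H := zpowers p) (p := 5) (by norm_num) (IsPGroup.of_card (n := 1)
    (by rw [Nat.card_zpowers, h]; rfl)) (fun g x => g.1 x) (fun _ => rfl) (fun _ _ _ => rfl)
    (T := (o \ unmask 8388609 : Finset Pt)) (fun g x hx => Finset.mem_coe.2
      ((show g.1 • _ = _ from s g.2) ▸ Finset.smul_mem_smul_finset hx)) (by
      rw [Set.ncard_coe_finset, Finset.card_sdiff_of_subset h1, ho.2]; decide +kernel)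
  obtain ⟨w1, w2⟩ := Finset.mem_sdiff.1 (Finset.mem_coe.1 hw)
  have := (Finset.mem_union.1 (f ▸ mem_fixS.2 (c ⟨p, mem_zpowers p⟩) : w ∈ _ ∪ _)).resolve_left w2
  rw [u, Finset.mem_insert, Finset.mem_singleton] at this
  rcases this with rfl | rfl
  exacts [h2 ⟨w1, k.1 w1⟩, h2 ⟨k.2 w1, w1⟩]

variable {G : Type*} [Group G]

theorem ncard_cls_conjg (A : Subgroup G) (g a : G) :
    {y | y ∈ A :^ g ∧ IsConj a y}.ncard = {y | y ∈ A ∧ IsConj a y}.ncard :=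
  Eq.symm (Set.ncard_congr (fun y _ => g * y * g⁻¹) (fun y e => ⟨conj_mem_conjg g e.1, (conj_conj g).2 e.2⟩)
    (fun a b _ _ e => by simpa using e) fun _ ⟨⟨y, e, r⟩, c⟩ => ⟨y, ⟨e, (conj_conj g).1 (r ▸ c :)⟩, r⟩)

theorem exists_conj_le [Finite G] {A B S : Subgroup G} {p : ℕ} (hp : p.Prime) (hS : Nat.card S = p)
    (h2 : ¬ p * p ∣ Nat.card G) (h : p ∣ Nat.card ↥(𝒩(A) ⊓ 𝒩(B))) : ∃ g, S ≤ 𝒩(A :^ g) ∧ S ≤ 𝒩(B :^ g) := by
  obtain ⟨R, a, b⟩ := exists_le_card_eq_prime hp h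
  obtain ⟨g, rfl⟩ := conj_of_card hp b hS h2
  exact ⟨g, conjg_le_norm_iff.2 (a.trans inf_le_left), conjg_le_norm_iff.2 (a.trans inf_le_right)⟩

theorem inf_ne_bot {A B : Subgroup G} {g a : G} (h : a ∈ A :^ g) (h' : a ∈ B :^ g) (h1 : a ≠ 1) : A ⊓ B ≠ ⊥ :=
  fun e => h1 (by simpa [← conjg_inf, e] using mem_inf.2 ⟨h, h'⟩)

namespace HM

variable [Finite G] {X : HM G} [hF : Fact X.Fu]

theorem IsV.ncard_z {A : Subgroup G} (h : X.IsV A) : {y | y ∈ A ∧ IsConj X.z y}.ncard = 1771 := by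
  obtain ⟨g, rfl⟩ := h
  rw [ncard_cls_conjg, ← X.orbit_z, X.ncard_orbit_z]

theorem IsV.ncard_t {A : Subgroup G} (h : X.IsV A) : {y | y ∈ A ∧ IsConj X.t y}.ncard = 276 := by
  obtain ⟨g, rfl⟩ := h
  rw [ncard_cls_conjg, ← X.ncard_orbit_t, X.orbit_t]
  exact congrArg _ (Set.ext fun y => and_congr_right fun a => ⟨fun e => ⟨ne_of_conj X.t_ne e, fun b => not_both b e⟩,
    fun e => t_of_not (X.V_sq a) e.1 e.2⟩)

theorem fix_cls {A S : Subgroup G} {p : ℕ} (hp : p.Prime) (hS : IsPGrp p S) (h : S ≤ 𝒩(A)) {a : G}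
    (e : ¬ p ∣ {y | y ∈ A ∧ IsConj a y}.ncard) : ∃ y ∈ A, IsConj a y ∧ y ∈ 𝒞(S) := by
  obtain ⟨y, b, c⟩ := fix_elt hp hS (T := {y | y ∈ A ∧ IsConj a y})
    (fun s hs y e => ⟨conj_mem_of_mem_norm (h hs) e.1, (conj_conj s).2 e.2⟩) e
  exact ⟨y, b.1, b.2, c⟩

variable {A B : Subgroup G} (hA : X.IsV A) (hB : X.IsV B)
include hA hB

theorem IsV.l27 (h : 27 ∣ Nat.card ↥(𝒩(A) ⊓ 𝒩(B))) : A ⊓ B ≠ ⊥ := by
  have := Fact.mk Nat.prime_three
  obtain ⟨R, a⟩ := Sylow.exists_subgroup_card_pow_prime 3 (n := 3) h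
  rw [← card_map_of_injective (subtype_injective _)] at a
  obtain ⟨g, -, b⟩ := sylow_Jsub Nat.prime_three X.R3_syl (pGrp_of_card_eq_pow Nat.prime_three a) le_top
  have c := eq_of_le_of_card_ge b (by rw [card_conjg, a, X.heis.card]; rfl)
  have k : ∀ C, X.IsV C → 𝒩(A) ⊓ 𝒩(B) ≤ 𝒩(C) → X.z ∈ C :^ g := fun C hC e => by
    obtain ⟨y, d1, d2, d3⟩ := fix_cls Nat.prime_three X.R3_sylH.piGrp
      (c ▸ conjg_le_norm_iff.2 ((map_subtype_le R).trans e)) (by rw [(hC.conjg g).ncard_z]; norm_num)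
    obtain ⟨n, n1, rfl⟩ := fuse_norm Nat.prime_three X.R3_sylH d3 d2
    rwa [conj_eq_iff_commute.2 (mem_cent_iff.1 (X.norm_R3 n1))] at d1
  exact inf_ne_bot (k A hA inf_le_left) (k B hB inf_le_right) X.z_ne

theorem IsV.l7 (h : 7 ∣ Nat.card ↥(𝒩(A) ⊓ 𝒩(B))) : A ⊓ B ≠ ⊥ := by
  classical
  have p7 : Nat.Prime 7 := by norm_num
  obtain ⟨P, c, -, n⟩ := X.syl_N (Or.inr rfl)
  replace n := n (card_N7 (X := X) c).le
  have pg := pGrp_of_card_eq p7 c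
  obtain ⟨g, a, b⟩ := exists_conj_le p7 c X.not_49 h
  obtain ⟨f, -, f2⟩ := X.five
  obtain ⟨D, ⟨d1, d2⟩, d3⟩ := fix_sub p7 pg (T := {A | X.IsV A ∧ X.ZZ ≤ A}) (fun s hs A e =>
    ⟨e.1.conjg s, conjg_of_mem_norm (n (le_normalizer hs)) ▸ conjg_mono s e.2⟩) (by
      have s : {A | X.IsV A ∧ X.ZZ ≤ A} ⊆ ((Finset.range 5).image fun i => X.V :^ f i : Finset _) := fun A e => by
        obtain ⟨i, hi, rfl⟩ := f2 A e.1 e.2
        exact Finset.mem_coe.2 (Finset.mem_image_of_mem _ (Finset.mem_range.2 hi))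
      have u := Set.ncard_le_ncard s
      have v := (Set.ncard_pos ((Finset.finite_toSet _).subset s)).2 ⟨X.V, X.isV, X.ZZ_le_V⟩
      have w := Finset.card_image_le (s := Finset.range 5) (f := fun i => X.V :^ f i)
      rw [Set.ncard_coe_finset] at u
      rw [Finset.card_range] at w
      omega)
  obtain ⟨t, ht⟩ := (ln7 (X := X) c).2
  have k : ∀ C, X.IsV C → P ≤ 𝒩(C) → ∃ n ∈ 𝒩(P), n * t * n⁻¹ ∈ C := fun C hC e => by
    obtain ⟨y, d1, d2, d3⟩ := fix_cls p7 pg e (by rw [hC.ncard_t]; norm_num)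
    obtain ⟨n, n1, rfl⟩ := ht.fuse y d3 d2
    exact ⟨n, n1, d1⟩
  obtain ⟨m, m1, m2⟩ := k D d1 d3
  have l : ∀ C, X.IsV C → P ≤ 𝒩(C) → X.z ∈ C := fun C hC e => by
    obtain ⟨u, u1, u2⟩ := k C hC e
    rw [hC.uniq (d1.conjg (u * m⁻¹)) ((conj_conj u).2 ht.cj) u2 (mem_conjg.2 (by simpa [mul_assoc] using m2))]
    exact (conjg_of_mem_norm (n (mul_mem u1 (inv_mem m1))) ▸ conjg_mono _ d2 :) X.z_ZZ
  exact inf_ne_bot (l _ (hA.conjg g) a) (l _ (hB.conjg g) b) X.z_ne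

omit hB in
theorem IsV.good5 (a : X.z ∈ A) (b : X.zp ∉ A) {x : G} (h : orderOf x = 5) (c : Commute X.z x) (d : Commute X.zp x)
    (n : x ∈ 𝒩(A)) : X.Good X.z X.zp X.EE X.EP A := by
  obtain ⟨o, p⟩ := hA.pt a
  have := Fact.mk Nat.prime_five
  refine p.good (t32_of_five (π_SD c d) (orderOf_eq_prime (by rw [← X.π_pow c, ← h, pow_orderOf_eq_one, X.π_one])
    fun e => ?_) p.oct.1 p.oct.2 (mt p.zp_mem.2 b) ((p.norm c).1 n))
  exact absurd (h ▸ orderOf_dvd_of_pow_eq_one (X.es.pow_four (mem_EE_zp c d e))) (by norm_num)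

omit hA hB in
theorem pair_ZZ {a b : G} (ha : a ∈ X.ZZ) (hb : b ∈ X.ZZ) (a1 : a ≠ 1) (b1 : b ≠ 1) (h : a ≠ b) :
    ∃ n ∈ 𝒩(X.ZZ), n * a * n⁻¹ = X.z ∧ n * b * n⁻¹ = X.zp := by
  obtain ⟨c, c1, rfl⟩ := X.trans_ZZ ha a1
  obtain ⟨v, hv, k, e⟩ := X.mem_ZZ.1 (conj_mem_of_mem_norm' c1 hb)
  have v0 : v ≠ 0 := by
    rintro rfl
    rw [X.s_zero, one_mul] at e
    rcases X.z_cases k with f | f
    · exact b1 (conj_eq_one_iff.1 (by rw [inv_inv]; exact e.trans f : c⁻¹ * b * c⁻¹⁻¹ = 1))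
    · exact h (by rw [← f, ← e]; group)
  obtain ⟨i, w, hw, e1⟩ := (by decide +kernel : ∀ v ∈ ZV, v ≠ 0 → ∀ k < 2, ∃ i < 3, ∃ w < 9,
    ap (fs (cpow cO i)) v = 1544 ∧ sg (sn (cpow cO i)) = 0 ∧ (bb w 1544 + k) % 2 = 0) v hv v0 (k % 2)
    (Nat.mod_lt _ two_pos) |>.imp fun _ h => h.2
  have r : X.Rq (X.s w * X.ρ ^ i) w (cpow cO i) := ⟨by omega, _, X.rc_ρ.pow i, rfl⟩
  have m : X.s w * X.ρ ^ i ∈ X.pre SD := ⟨r.zc, by
    rw [X.π_mul _ _ (X.zs w) (X.zρ.pow_right i), X.π_s, X.π_pow X.zρ, X.π_ρ, one_pow, mul_one]; exact one_mem _⟩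
  refine ⟨X.s w * X.ρ ^ i * c⁻¹, mul_mem (X.pre_SD m) (inv_mem c1), ?_, ?_⟩
  · rw [← conj_eq_iff_commute.2 r.zc.symm]
    conv_lhs => rw [conj_eq_iff_commute.2 r.zc.symm]
    group
  · rw [show X.s w * X.ρ ^ i * c⁻¹ * b * (X.s w * X.ρ ^ i * c⁻¹)⁻¹ =
      X.s w * X.ρ ^ i * (c⁻¹ * b * c) * (X.s w * X.ρ ^ i)⁻¹ by group, e, cjm, r.act (ZV_lt v hv).1,
      conj_eq_iff_commute.2 (r.zc.pow_left k).symm, e1.1, e1.2.1, mul_assoc, ← pow_add, X.zmod (b := 0) (by omega),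
      pow_zero, mul_one, zp]

theorem IsV.l5 (h : 5 ∣ Nat.card ↥(𝒩(A) ⊓ 𝒩(B))) (e : A ⊓ B = ⊥) : Nat.card ↥(A ⊓ 𝒩(B)) = 2 := by
  have p5 := Nat.prime_five
  obtain ⟨P, c, z, n⟩ := X.syl_N (Or.inl rfl)
  replace n := n (card_N5 (X := X) c).le
  have s := sylow_of_sq p5 c (z rfl) (by rw [X.card_H]; norm_num)
  obtain ⟨g, a, b⟩ := exists_conj_le p5 c X.not_25 h
  obtain ⟨x, hx, rfl⟩ := exists_zpowers_of_card_prime p5 c
  have xz : x ∈ 𝒞(X.ZZ) := by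
    obtain ⟨-, φ, -, -, h3⟩ := X.exists_φ
    have m := n (le_normalizer (mem_zpowers x))
    exact h3 ⟨x, m⟩ (snd_five (by
      rw [← map_pow, show (⟨x, m⟩ : 𝒩(X.ZZ)) ^ 5 = 1 from Subtype.ext (hx ▸ pow_orderOf_eq_one x), map_one]))
  have k : ∀ C, X.IsV C → zpowers x ≤ 𝒩(C) → ∃ y ∈ C, y ∈ X.ZZ ∧ y ≠ 1 := fun C hC e => by
    obtain ⟨y, d1, d2, d3⟩ := fix_cls p5 s.piGrp e (by rw [hC.ncard_z]; norm_num)
    obtain ⟨m, m1, rfl⟩ := fuse_norm p5 s d3 d2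
    exact ⟨_, d1, conj_mem_of_mem_norm (n m1) X.z_ZZ, ne_of_conj X.z_ne d2⟩
  obtain ⟨u, u1, u2, u3⟩ := k _ (hA.conjg g) a
  obtain ⟨v, v1, v2, v3⟩ := k _ (hB.conjg g) b
  obtain ⟨m, m1, m2, m3⟩ := pair_ZZ u2 v2 u3 v3 fun r => inf_ne_bot u1 (r ▸ v1) u3 e
  have a1 := conj_mem_conjg m u1
  have b1 := conj_mem_conjg m v1
  have a2 := conj_mem_conjg m (a (mem_zpowers x))
  have b2 := conj_mem_conjg m (b (mem_zpowers x))
  have x1 := conj_mem_conjg m xz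
  rw [m2, ← conjg_mul] at a1
  rw [m3, ← conjg_mul] at b1
  rw [conjg_norm, ← conjg_mul] at a2 b2
  rw [conjg_cent, conjg_of_mem_norm m1, mem_cent_subgroup_iff] at x1
  have x2 := (x1 _ X.z_ZZ).symm
  have x3 := (x1 X.zp (X.s_ZZ (by decide))).symm
  rw [← orderOf_conj x m] at hx
  generalize m * x * m⁻¹ = y at *
  have ga := (hA.conjg _).good5 a1 (fun r => inf_ne_bot r b1 X.zp_ne_one e) hx x2 x3 a2
  have gb := (((hB.conjg (m * g)).conjg X.sw⁻¹).good5 (mem_conjg_inv.2 (X.sw_z ▸ b1))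
    (fun r => inf_ne_bot a1 (X.sw_zp ▸ mem_conjg_inv.1 r) X.z_ne e) (x := X.sw⁻¹ * y * X.sw⁻¹⁻¹)
    ((orderOf_conj _ _).trans hx) (by rw [inv_inv, ← commute_conj_left_iff, X.sw_z]; exact x3)
    (by rw [inv_inv, ← commute_conj_left_iff, X.sw_zp]; exact x2) (conjg_norm (B :^ (m * g)) _ ▸ conj_mem_conjg _ b2)).sw
  rw [← conjg_mul, mul_inv_cancel, conjg_one] at gb
  rw [← gb.two ga, ← conjg_norm, ← conjg_inf, card_conjg]

omit hA hB in
variable (X) in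
theorem del3 : X.Ty 3 147456 := by
  obtain ⟨A, B, a, b, e, h, n, hn, k, hk, f⟩ := X.del3'
  refine Ty.of a b (by rw [pcl, if_pos e, min_eq_right h]) ?_
  have d : n ∣ Nat.card ↥(𝒩(A) ⊓ 𝒩(B)) := ⟨k, f.symm⟩
  have : n ≤ 12 := by
    by_contra c
    obtain rfl | rfl | rfl : n = 13 ∨ n = 14 ∨ n = 15 := by omega
    · obtain ⟨g, rfl⟩ := a
      have := d.trans (card_dvd_of_le inf_le_left)
      rw [← conjg_norm, card_conjg, X.card_M] at this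
      norm_num at this
    · exact a.l7 b (Nat.dvd_trans (by norm_num) d) e
    · have := a.l5 b (Nat.dvd_trans (by norm_num) d) e
      omega
  rw [← f]
  exact (Nat.mul_le_mul this hk).trans (by norm_num)

end HM

end

end CA.J4
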