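import Cfsg.Agent.J4r.Gen
import Cfsg.Agent.J4o.Fiv

/-! The conjugates of the large elementary abelian subgroup through an involution. -/

set_option autoImplicit false
set_option maxRecDepth 100000
set_option linter.unusedSectionVars false

namespace CA.J4

open CA.M24 CA.Fi CA.FG CA.J4o Cfsg Subgroup Equiv
open scoped commutatorElement Pointwise

noncomputable section

def o231 : List (List ℕ) := [[0, 1, 0, 0, 0, 0, 0], [1, 0, 1, 1, 0, 0], [], [1, 1, 1, 0, 0, 2, 1], [2, 0, 0, 1, 0, 0, 1], [1, 1, 0, 1, 0], [1, 0, 1, 1, 1], [0, 0, 1, 0, 2, 1], [1, 1, 1, 0, 0, 2, 1, 0], [1, 0, 0, 0, 1, 0, 0], [0, 1, 0, 1, 1, 0, 0], [1], [0, 1, 0, 0, 2, 1], [2, 1, 0, 1, 0], [0, 0], [1, 0, 0, 2, 1], [1, 1, 0, 0, 0, 0, 0], [2, 1, 1, 1, 0, 1, 0], [2, 0, 1, 0, 0, 0, 1], [2, 0, 0, 0, 2, 1, 1], [0, 1, 0], [0, 1, 0, 0, 1, 0, 0, 1], [1, 0, 2, 1], [0, 2, 1], [2, 0, 1, 1, 0, 0],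 [1, 0, 1, 0, 1, 0], [1, 1, 0, 2, 1], [2, 0, 1, 0, 0, 0, 0, 0], [0, 0, 1, 0, 0, 2, 1], [1, 0, 1, 1, 0, 0, 0, 1], [0, 0, 1, 0], [2, 0, 0, 1, 0, 0], [0, 0, 0, 1, 0, 0, 0, 0, 0], [1, 1, 0, 0, 1, 0], [2, 1, 0, 0, 1, 0], [1, 0, 0, 0, 0, 1, 0, 0], [1, 1, 0, 0, 0, 1, 0], [0, 2, 1, 1, 0, 0], [1, 0, 1, 1, 0, 0, 1], [2, 1, 0, 0], [2, 1, 0, 0, 1], [2, 0, 1, 0, 1, 1], [2, 0, 0, 2, 1, 0], [2, 1, 1, 0, 1, 1, 1], [2, 0, 1, 0, 1, 0, 0], [0, 1, 1, 0, 0], [0, 1, 0, 0, 0, 1], [1, 1, 1], [0, 0, 0, 0, 0], [1, 0, 0, 1, 1, 0, 0], [1, 1], [0, 0, 1, 0, 0, 1], [1, 1, 1, 0, 2, 1], [1, 0, 0, 1, 1, 1], [2, 0, 0, 0, 1], [1, 0, 0, 0, 1, 0], [0, 0, 0, 2, 1, 1], [2, 0, 2, 1, 0], [0, 0, 2, 1, 0, 0, 0], [1, 1, 0, 0, 0, 0, 1], [2, 0, 0, 1, 1, 1, 0, 0], [0, 0, 0, 2, 1, 0, 0], [2, 1, 0, 1, 1, 1], [1, 0, 0, 1, 1], [2, 1, 1, 0, 1, 0, 0], [0, 1, 1, 0, 0, 1], [0, 0, 0, 1, 0], [2, 1, 1, 0, 0,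 0, 1], [0, 2, 1, 0, 0, 1, 0], [0, 0, 1, 1, 0, 0, 1, 0], [0, 0, 1], [1, 0, 2, 1, 1, 1], [2, 1, 1, 1, 0, 0], [2, 0, 1, 1, 1], [0, 1, 1, 0, 0, 1, 0], [0, 2, 1, 0, 0, 0], [0, 1, 0, 1, 0, 1, 0, 0], [2, 1, 0, 1, 0, 0], [1, 0], [1, 0, 1, 1, 0, 0, 0, 0, 0], [2, 0, 1, 0, 2, 1], [0, 2, 1, 0, 1, 0, 0], [1, 1, 0, 1, 0, 0, 1], [0, 1, 0, 0, 0, 1, 0], [1, 0, 1, 0, 2, 1], [2, 0], [1, 0, 1, 1, 1, 0, 0], [0, 0, 2, 1, 0, 0], [1, 0, 0, 1, 0, 0, 0, 0, 0], [0, 2, 1, 1, 0, 1, 0, 0], [0, 1, 0, 0, 1, 1], [2, 0, 2, 1, 1], [2, 1, 0, 0, 2, 1, 1], [1, 1, 0, 0], [1, 0, 1, 0, 1, 1], [2, 0, 2, 1, 0, 0], [1, 0, 0, 2, 1, 0], [2, 0, 2, 1, 1, 1], [0, 0, 1, 0, 1, 1], [1, 0, 1, 0, 1, 0, 0], [1, 1, 0, 0, 1], [1, 0, 1, 0, 1, 1, 1], [0, 1, 1, 1, 0, 0, 0, 0, 1], [0, 0, 0, 0], [0, 1, 0, 0, 1], [1, 1, 0, 0, 2, 1], [2, 0, 1, 0], [1, 0, 0, 1, 0, 0, 1], [2, 1, 1], [0, 0, 1, 1, 1, 0, 0], [1, 1,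 1, 0, 0, 0, 0, 0], [2, 1], [2, 0, 1, 0, 1, 1, 0, 0], [0, 0, 0, 1, 1, 1], [2, 0, 1, 0, 1, 1, 1], [1, 0, 1, 0], [2, 0, 0], [2, 0, 0, 1, 1, 0, 0], [2, 0, 0, 1, 0, 0, 0, 0, 0], [1, 1, 0, 2, 1, 0], [0, 0, 2, 1], [1, 1, 1, 0, 1, 0], [1, 0, 0, 0, 0, 0], [2, 1, 1, 1], [0, 2, 1, 0], [2, 1, 0, 0, 1, 0, 0, 1], [2], [2, 1, 0, 1, 1, 0, 0], [0, 1, 1, 0, 2, 1], [0, 0, 2, 1, 1], [2, 1, 1, 0, 1, 0], [0, 2, 1, 1, 0, 1, 1, 1], [2, 0, 0, 0, 1, 0, 0, 1], [0, 2, 1, 0, 1, 1, 1], [1, 0, 0, 0, 1], [2, 0, 1, 0, 0, 2, 1], [0, 1, 1, 0, 1, 0], [0, 2, 1, 1, 1], [2, 1, 0, 0, 0, 1], [2, 1, 0, 1, 0, 1, 1, 1], [0, 0, 2, 1, 1, 0, 0, 0, 1], [1, 0, 2, 1, 1, 0, 0], [1, 0, 0, 2, 1, 1], [0, 2, 1, 1], [2, 1, 0, 0, 0], [2, 0, 1, 1, 0, 1, 0, 0], [0, 1, 0, 1, 0, 1, 1], [0, 2, 1, 0, 0], [2, 0, 1, 0, 0], [2, 0, 0, 0, 2, 1, 0], [0, 0, 0, 0, 1], [2, 1, 0, 0, 2, 1, 0], [2, 1, 1, 0, 0], [0], [0, 1,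 1, 1, 0, 1, 0], [0, 1, 1, 0, 0, 0, 0, 0], [0, 2, 1, 1, 0, 0, 0, 1], [0, 0, 1, 1, 1, 0, 1, 0], [0, 0, 1, 0, 0, 0, 0, 0], [1, 0, 2, 1, 0, 1, 1, 1], [2, 1, 0], [0, 1], [0, 0, 2, 1, 1, 1], [2, 0, 2, 1, 0, 1, 0, 0], [0, 0, 2, 1, 1, 0, 0], [2, 1, 0, 0, 0, 2, 1, 0], [0, 0, 0, 0, 2, 1, 1], [0, 0, 0, 2, 1, 0], [0, 1, 0, 0, 1, 0], [0, 1, 0, 2, 1], [2, 0, 1, 0, 0, 1], [0, 1, 1, 1], [1, 1, 1, 0, 0], [0, 0, 0, 1, 0, 0, 1], [1, 1, 1, 0, 2, 1, 0], [1, 0, 1, 0, 0], [0, 0, 1, 1, 0, 0], [1, 1, 0, 0, 0, 1], [0, 1, 0, 1, 0], [0, 1, 1], [0, 0, 1, 0, 1, 0, 1, 1], [1, 1, 0, 0, 2, 1, 0], [2, 0, 0, 1], [1, 0, 0, 0, 0, 1], [1, 0, 0, 0, 2, 1, 0], [0, 1, 0, 0], [0, 0, 0, 1, 0, 0], [1, 1, 0, 1, 0, 1, 1], [2, 0, 0, 0, 0], [1, 0, 1, 0, 0, 1], [1, 1, 0, 1, 1, 1], [0, 0, 2, 1, 0], [2, 0, 0, 2, 1, 1], [0, 0, 0, 1], [1, 1, 0, 1, 0, 0], [0, 1, 0, 1, 1, 1], [1, 0, 2, 1, 0], [1, 1, 0,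 1, 0, 1, 0], [0, 0, 0], [1, 1, 1, 0, 0, 0, 0, 1], [1, 0, 0], [1, 0, 0, 1], [2, 0, 0, 1, 0, 1, 0, 1, 1], [2, 0, 0, 2, 1, 1, 1], [0, 1, 1, 0, 1, 0, 0], [0, 1, 0, 1, 1], [0, 1, 0, 1, 0, 1, 0], [2, 1, 1, 0, 0, 1], [2, 0, 0, 2, 1, 0, 0], [2, 0, 2, 1, 0, 0, 0], [0, 0, 0, 0, 1, 0, 0, 1], [1, 0, 0, 1, 0], [0, 1, 1, 0, 0, 0, 1], [0, 1, 0, 0, 0, 0, 1], [1, 0, 1, 1], [0, 0, 1, 1, 1], [1, 0, 1, 1, 0, 2, 1], [0, 0, 0, 0, 1, 0, 0], [0, 0, 0, 1, 1, 0, 0], [2, 0, 0, 0], [0, 0, 1, 0, 0], [1, 0, 1, 1, 0, 0, 1, 0], [0, 0, 1, 1], [1, 0, 1], [1, 0, 0, 0], [2, 1, 1, 0, 0, 1, 0], [2, 0, 0, 1, 0], [2, 1, 0, 1, 0, 1, 0, 0], [0, 1, 1, 1, 0, 0], [1, 1, 0, 1, 0, 1, 0, 0], [0, 1, 0, 1, 0, 0]]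
def sdg : List ℕ := [nat_lit 970039491861403123857895745294241280, nat_lit 12468185932623219154586911639701719]
def o32 : List (List ℕ) := [[1, 1, 0], [0, 1, 1, 1, 0], [0, 0, 0, 1, 0, 0, 0], [0, 0, 0], [0, 1, 0], [1, 1, 1, 1, 0], [1, 0, 1, 0], [0, 1, 0, 0], [0, 0, 1, 1, 0, 0], [1, 0, 0, 0, 0], [1, 0, 0, 1, 1, 0], [1, 1, 0, 0], [0, 0, 0, 0, 0], [1, 0], [0, 1, 1, 0], [1, 1, 1, 0], [0, 0], [0, 1, 0, 1, 0], [0, 0, 1, 1, 0], [0, 0, 1, 1, 1, 0], [1, 0, 0], [0, 1, 1, 0, 0], [], [1, 1, 0, 0, 0, 0], [0], [0, 0, 0, 0, 0, 0], [0, 1, 0, 0, 0], [1, 0, 0, 0], [0, 0, 1, 0], [1, 0, 1, 0, 0, 0], [0, 0, 0, 0], [0, 0, 1, 0, 0, 0]]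
def o40 : List (List ℕ) := [[1, 1, 0, 1, 0], [1], [1, 0, 0, 0], [0, 1, 0], [1, 1, 1, 1, 1], [1, 1, 0, 0, 0], [1, 0, 1, 0], [0, 1, 1, 1, 0], [0, 1, 0, 1], [1, 1, 0], [0, 0], [0, 0, 1, 0], [0, 1, 0, 1, 0], [0, 0, 1], [0, 0, 0], [1, 1, 1], [0, 1, 1], [1, 1, 1, 1], [0, 0, 1, 1], [1, 0, 1, 1, 0], [1, 0, 1, 0, 1, 0], [1, 0, 0, 1, 1], [1, 0], [0, 0, 0, 1], [1, 1, 0, 1], [1, 1, 1, 0], [1, 0, 0], [1, 0, 1], [1, 1], [1, 0, 0, 1], [0, 0, 1, 0, 0], [], [0], [1, 0, 0, 0, 1, 0], [0, 1, 1, 1], [0, 1, 1, 0, 0, 0], [0, 1, 1, 0], [0, 1, 0, 0], [0, 0, 0, 1, 0], [0, 1]]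
def o16 : List (List ℕ) := [[3, 0, 3, 0], [0, 3, 1, 3], [0], [1, 3], [3, 1, 3], [3, 0], [1, 0, 0], [0, 3, 0, 0], [], [3, 1, 0, 0], [0, 0], [1, 3, 0], [3], [3, 0, 0], [0, 3, 0], [0, 0, 3, 0]]
def o60 : List (List ℕ) := [[0, 0, 1, 0, 3, 1, 0, 0, 0], [0, 1, 0, 0, 0, 1, 0, 0], [3, 1, 0, 0, 1, 0, 0, 0], [0, 1, 3, 0, 0, 1, 0, 0, 0], [3, 1], [3, 1, 0, 1, 0, 0, 0], [3, 0, 0, 0], [3, 1, 0, 0, 0], [0, 1, 0, 3, 0], [1, 0, 0], [3, 0, 0, 1, 0, 0, 0], [0, 0, 0, 0], [3, 0], [1, 0, 1, 0, 0, 0], [0, 1, 0, 1, 0, 0, 0], [3, 1, 0, 0], [1, 0], [1, 0, 3, 1, 0, 0, 0], [3, 0, 1, 0, 0, 1, 0, 0, 0], [0, 0, 1, 3, 0, 0, 0], [0, 0, 0, 1, 0, 0], [0, 1, 0], [0, 0, 1, 0, 0], [0, 0, 0, 1], [0, 0, 0, 0, 1], [], [0, 3, 0], [1, 0, 1, 0], [1, 0, 0, 1, 3, 0, 0, 0], [0, 3, 1, 0, 0, 0], [0, 1, 0, 3, 1, 0, 0, 0], [0, 1, 0, 1, 0, 1, 0, 0, 0], [0, 1, 0, 1, 0], [3], [0, 1, 0, 0, 1, 0, 0, 0],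 [0, 0, 1], [0, 1, 0, 0, 0], [0, 1, 0, 0], [0, 0, 3, 0], [0, 0, 1, 0, 1, 0, 0, 0], [0, 0, 0, 0, 1, 0, 0], [3, 0, 0, 0, 0], [1, 0, 0, 1, 0, 0, 0], [0], [1, 0, 0, 0], [1, 0, 0, 1, 0, 1, 0, 0, 0], [1, 3, 0, 0, 1, 0, 0, 0], [0, 0], [0, 1], [0, 0, 0, 3, 0], [1, 3, 0, 0, 0], [0, 1, 3, 0, 0, 0], [3, 0, 1, 0, 0], [0, 0, 0], [1], [0, 0, 1, 0, 0, 0], [0, 3, 1, 0, 0, 1, 0, 0, 0], [1, 0, 1, 0, 1, 0, 0, 0], [1, 0, 3, 0], [1, 0, 0, 0, 1, 0, 0]]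
def O32 : ℕ := 11100169
def O40 : ℕ := 13062145
def O16 : ℕ := 11575377
def h32 : ℕ := nat_lit 969096121186277489582846806688550304
def h40 : ℕ := nat_lit 1468342271314354267702434968646359
def h16 : ℕ := nat_lit 958893191738894086293859783353482368
def cσ : ℕ := nat_lit 811948329877043459261417550807472488
def R32 : List ℕ := [nat_lit 13164020973306496531536152605297847, nat_lit 13313603386121538832581796834643415, nat_lit 13361774566221828837325365514931255, nat_lit 13858692994544414546927238932139575, nat_lit 23543230369142078048009060130819639, nat_lit 23715631481993979412092670698392631, nat_lit 23751125239469056497157236288720343, nat_lit 24225226902548029001006560607014071, nat_lit 24851906469401561637476012594892247, nat_lit 25004024877453741486833839700511927, nat_lit 25036983297310064975318963544198711, nat_lit 25536438262301059128512658484038711,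 nat_lit 28728273525507709560231316289555511, nat_lit 28903208699105439498800372982550071, nat_lit 28948844618502962286216463385693367, nat_lit 29425480884060970278599249142812119, nat_lit 968533965925265131744561505160497696, nat_lit 968708902336673183175954409307867168, nat_lit 968754537289126987927570659913337280, nat_lit 969231174250762110498729277811427488, nat_lit 978935994059595565513698360758995104, nat_lit 979088111771419662774896167390120384, nat_lit 979121071158219704299181131031480352, nat_lit 979620524885551344968935166850468384, nat_lit 980224387687010295957922729495201824, nat_lit 980396787561598970936339623786416672, nat_lit 980432282286470670950046897996400800, nat_lit 980906383253019623982277521351739840, nat_lit 984123571547119987159515244511988160, nat_lit 984273154656616016941563778037811360, nat_lit 984321324869319684017664638098442784,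 nat_lit 984818244535754528103549039458486304]
def BW : ℕ := nat_lit 3739458171560338022165
def cτ : ℕ := nat_lit 5718112017588663122355611184427966598883107883570426874241591522647841609682487
def cτ2 : ℕ := nat_lit 1340031221031163272101198419306598087579145655177084256658015046803352619944480

theorem sub_iff {a : ℕ} (ha : a < 2 ^ 24) {o : Finset Pt} : unmask a ⊆ o ↔ Nat.land a (mask o) = a := by
  rw [subset_iff_mask, mask_unmask ha]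

theorem smul_iff {p : Perm Pt} {a : ℕ} (ha : a < 2 ^ 24) : p • unmask a = unmask a ↔ mapp (code p) a = a := by
  rw [← mask_inj.eq_iff, ← mapp_code, mask_unmask ha]

theorem gm_lt (v : ℕ) : gm v < 2 ^ 24 := Nat.lt_succ_of_le Nat.and_le_right

theorem mem_R32 {p : Perm Pt} (hp : p ∈ DD) (h1 : mapp (code p) 12 = 12) (h2 : ∀ o ∈ O5, mapp (code p) o = o) :
    code p ∈ R32 := by
  have k := allL_eq_true.1 (by decide +kernel : allL (fun d => band (memL (sn d) R32)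
    (force (pmul (sn cτ) (sn d)) fun e => memL e R32)) L16 = true)
  simp only [band_eq_true, memL_eq_true, force_eq] at k
  obtain ⟨a, ⟨b, c⟩ | ⟨b, c⟩⟩ := mem_DD.1 hp
  · obtain ⟨d, hd, e⟩ := mem_L16 (mem_M22'.2 ⟨a, b, c⟩) h1 h2
    exact e ▸ (k d hd).1
  obtain ⟨t, t1, t2⟩ := inM_of_chk (show chk (sn cτ) = true by decide +kernel)
  have f : ∀ o < 2 ^ 24, mapp (code p) o = o → mapp (sn cτ) o = o → mapp (code (t⁻¹ * p)) o = o := fun o l x y => by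
    rw [← t2, ← smul_iff l] at y
    rw [← smul_iff l, mul_smul, (smul_iff l).2 x, inv_smul_eq_iff, y]
  obtain ⟨d, hd, e⟩ := mem_L16 (p := t⁻¹ * p) (mem_M22'.2 ⟨mul_mem (inv_mem t1) a, by
      rw [Perm.mul_apply, b, Perm.inv_eq_iff_eq, apply_pt t (by norm_num), t2]; decide +kernel, by
      rw [Perm.mul_apply, c, Perm.inv_eq_iff_eq, apply_pt t (by norm_num), t2]; decide +kernel⟩)
    (f _ (by norm_num) h1 (by decide +kernel)) fun o ho => f o ((by decide : ∀ o ∈ O5, o < 2 ^ 24) o ho) (h2 o ho)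
      ((by decide +kernel : ∀ o ∈ O5, mapp (sn cτ) o = o) o ho)
  have := (k d hd).2
  rwa [e, ← t2, pmul_code, mul_inv_cancel_left] at this

variable {G : Type*} [Group G]

namespace HM

variable [Finite G] (X : HM G)

/-- the conjugate of `V` attached to an octad -/
def PtO (A : Subgroup G) (o : Finset Pt) : Prop := ∃ h, Commute X.z h ∧ A = X.V :^ h ∧ X.π h • unmask O0 = o

/-- another member of the eight-group -/
def zp : G := X.s 1544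

theorem SB_le' {B k : ℕ} {K : Subgroup G} (hk : k ≤ 12) (hz : X.z ∈ K) (h : ∀ i < k, X.s (col B i) ∈ K) :
    X.SB B k ≤ K := by
  rintro _ ⟨v, hv, j, rfl⟩
  refine mul_mem (xor_induction (fun v => X.s (ap B v) ∈ K) (by rw [ap_zero, X.s_zero]; exact one_mem _)
    (fun a b _ _ h1 h2 => ?_) (fun i hi => ap_two_pow B (hi.trans_le hk) ▸ h i hi) v hv) (pow_mem hz _)
  rw [ap_xor, eq_mul_inv_iff_mul_eq.2 (X.s_mul _ (ap_lt _ _) _ (ap_lt _ _)).symm]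
  exact mul_mem (mul_mem h1 h2) (inv_mem (pow_mem hz _))

theorem zp_ev : X.ev 31 = X.zp := by
  rw [X.ev_W (by norm_num), show ap mW 31 = 1544 by decide +kernel, show b6 31 = 0 by decide +kernel, pow_zero, mul_one,
    zp]

theorem zp_EE : X.zp ∈ X.EE := X.s_mem (by norm_num)
theorem z_zp : Commute X.z X.zp := X.zs _
theorem zp_ne : X.zp ≠ X.z := fun h => absurd (X.s_inj 1544 (by norm_num) (Or.inr h)) (by norm_num)
theorem zp_ne_one : X.zp ≠ 1 := fun h => absurd (X.s_inj 1544 (by norm_num) (Or.inl h)) (by norm_num)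

theorem card_F : Nat.card ↥(X.EE ⊓ 𝒞[X.zp]) = 4096 := by
  have := X.es.card_eq_two_mul le_rfl X.zp_EE (X.s_mem (v := 8) (by norm_num)) fun h =>
    absurd ((X.s_commute_iff (by norm_num) (by norm_num)).1 h) (by decide +kernel)
  rw [X.card_EE] at this
  omega

variable {X}

theorem IsV.pt {A : Subgroup G} (h : X.IsV A) (a : X.z ∈ A) : ∃ o, X.PtO A o := by
  obtain ⟨g, hg, e⟩ := X.conj_V_H (fun u hu => mem_cent_iff.2 (h.comm hu a)) h.elem h.card.ge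
  exact ⟨_, g, hg, e, rfl⟩

theorem exists_pt {c o : ℕ} (h : band (chkD c) (Nat.beq (mapp c O0) o) = true) : ∃ A, X.PtO A (unmask o) := by
  rw [band_eq_true, beq_iff] at h
  obtain ⟨p, hp, rfl⟩ := inD_of_chk h.1
  obtain ⟨n, c, a, rfl⟩ := exists_lift (X := X) hp
  exact ⟨_, n, a.zc, rfl, by rw [← h.2, ← mask_O0, mapp_code, unmask_mask, unmask_mask]⟩

theorem Rq.zp {g : G} {v c : ℕ} (h : X.Rq g v c) (e : Commute X.zp g) : ap (fs c) 1544 = 1544 :=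
  (h.fix (k := 0) (by norm_num) (by rw [pow_zero, mul_one]; exact e.symm)).1

theorem π_SD {g : G} (h : Commute X.z g) (e : Commute X.zp g) : X.π g ∈ SD := by
  obtain ⟨v, c, r⟩ := exists_rq h
  have := r.ex.gm_ap (v := 1544) (by norm_num)
  rw [r.zp e, show gm 1544 = 12 by decide +kernel, ← r.code_π] at this
  exact ⟨X.π_mem g h, (smul_iff (by norm_num)).2 this.symm⟩

theorem Rq.code_eq {g : G} {v c d : ℕ} (h : X.Rq g v c) (e : Commute X.zp g) (hd : X.Ex d) (s : sn c = sn d)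
    (k : allR (fun i => force (cmul (cpow cO i) d) fun e => bimp (Nat.beq (ap (fs e) 1544) 1544) (Nat.beq e d)) 3 = true) :
    c = d := by
  obtain ⟨i, hi, rfl⟩ := h.ex.eq_of_sn hd s
  simpa [h.zp e] using allR_eq_true.1 k i hi

theorem mem_EE_zp {g : G} (h : Commute X.z g) (e : Commute X.zp g) (a : X.π g = 1) : g ∈ X.EE := by
  obtain ⟨v, c, r⟩ := exists_rq h
  obtain rfl := r.code_eq e ⟨_, X.rc_one⟩ (by rw [← r.code_π, a, code_one, sn_cone]) (by decide +kernel)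
  exact r.mem_EE

namespace PtO

variable {A : Subgroup G} {o : Finset Pt} (h : X.PtO A o)
include h

theorem isV : X.IsV A := by obtain ⟨g, -, e, -⟩ := h; exact ⟨g, e⟩

theorem z_mem : X.z ∈ A := by
  obtain ⟨g, a, rfl, -⟩ := h
  exact conj_eq_iff_commute.2 a.symm ▸ conj_mem_conjg g X.z_mem_V

theorem zc {y : G} (hy : y ∈ A) : Commute X.z y := h.isV.comm h.z_mem hy

theorem oct : o ∈ octads ∧ Nat.land 8388609 (mask o) = 8388609 := by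
  obtain ⟨g, a, -, rfl⟩ := h
  exact ⟨smul_mem_octads (DD_le (X.π_mem g a)) O0_mem, (sub_iff (by norm_num)).1
    ((show X.π g • unmask 8388609 = unmask 8388609 from (X.π_mem g a).2) ▸
      Finset.smul_finset_subset_smul_finset (by decide +kernel))⟩

theorem all {q : ℕ → Bool} (H : octT.all (fun o => bimp (Nat.beq (Nat.land 8388609 o) 8388609) (q o)) = true) :
    q (mask o) = true := bimp_eq_true.1 (forall_octads H h.oct.1) (beq_iff.2 h.oct.2)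

theorem norm {g : G} (hg : Commute X.z g) : g ∈ 𝒩(A) ↔ X.π g • o = o := by
  obtain ⟨k, a, rfl, rfl⟩ := h
  have z := (a.inv_right.mul_right hg).mul_right a
  have : X.π (k⁻¹ * g * k) • unmask O0 = unmask O0 ↔ X.π g • X.π k • unmask O0 = X.π k • unmask O0 := by
    rw [X.π_mul _ _ (a.inv_right.mul_right hg) a, X.π_mul _ _ a.inv_right hg, X.π_inv a, mul_smul, mul_smul,
      inv_smul_eq_iff]
  rw [← conjg_norm, mem_conjg, ← this]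
  exact ⟨fun e => (X.norm_inf_le z e).2.2, fun e => X.Y_le_norm ⟨z, X.π_mem _ z, e⟩⟩

theorem EE_le : X.EE ≤ 𝒩(A) := fun _ e => (h.norm (X.z_EE e)).2 (by rw [X.π_EE e, one_smul])

theorem mem_s {v : ℕ} (hv : v < 4096) (j : ℕ) :
    X.s v * X.z ^ j ∈ A ↔ qq v = 0 ∧ Nat.land (gm v) (mask o) = gm v := by
  have z := h.z_mem
  obtain ⟨k, a, rfl, rfl⟩ := h
  obtain ⟨w, c, r⟩ := exists_rq a.inv_right
  have e := r.act hv
  have e1 := r.ex.gm_ap hv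
  rw [← r.code_π, ← mask_unmask (gm_lt v), mapp_code, X.π_inv a] at e1
  rw [inv_inv] at e
  obtain ⟨n, hn⟩ := r.ex
  rw [mul_mem_cancel_right (pow_mem z _), mem_conjg, e,
    mul_mem_cancel_right (pow_mem X.z_mem_V _), ← sub_iff (gm_lt v), Finset.subset_smul_finset_iff, ← hn.qq_ap hv,
    subset_iff_mask, ← e1, mask_O0]
  generalize ap (fs c) v = u, ap_lt (fs c) v = hu
  refine ⟨fun ⟨x, hx, e⟩ => ?_, fun ⟨b, d⟩ => ?_⟩
  · rw [← (Rq.unique (w := u) (X.vv_ev hx) (e ▸ X.rq_s hu)).1, mW_mod]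
    exact (by decide +kernel : ∀ x < 64, qq (ap mW x) = 0 ∧ Nat.land (gm (ap mW x)) O0 = gm (ap mW x)) _
      (Nat.mod_lt x (by norm_num))
  · have := allV (by decide +kernel : allP (fun v => bimp (Nat.beq (qq v) 0) (bimp (Nat.beq (Nat.land (gm v) O0) (gm v))
      (anyR (fun x => Nat.beq (ap mW x) v) 64))) 12 0 = true) hu
    simp only [bimp_eq_true, beq_iff, anyR_eq_true] at this
    obtain ⟨x, -, rfl⟩ := this b d
    exact X.s_W x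

theorem zp_mem : X.zp ∈ A ↔ Nat.land 12 (mask o) = 12 := by
  have := h.mem_s (v := 1544) (by norm_num) 0
  rw [pow_zero, mul_one, show gm 1544 = 12 by decide +kernel] at this
  exact this.trans (and_iff_right (by decide +kernel))

theorem π_mem {y : G} (hy : y ∈ A) : y ∈ X.EE ∨ fixS (X.π y) = o := by
  have z := h.zc hy
  have q := h.isV.sq hy
  obtain ⟨k, a, rfl, rfl⟩ := h
  obtain ⟨_, ⟨x, hx, rfl⟩, rfl⟩ := hy
  have b := X.zc_V (X.ev_mem hx)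
  change _ ∨ fixS (X.π (k * _ * k⁻¹)) = _
  rw [X.π_mul _ _ (a.mul_right b) a.inv_right, X.π_mul _ _ a b, X.π_inv a, fixS_conj]
  rcases (by decide +kernel : ∀ k < 16, sn (uc k) = pone ∨ pfix (sn (uc k)) = O0) _ (sh7_lt hx) with e | e
  · rw [← X.code_π_ev hx, ← code_one] at e
    exact Or.inl (X.conj_EE a (X.mem_EE_of_pow b (code_inj e) (k := 1) (by rw [pow_one, pow_two, X.ev_sq])))
  · rw [fixS_code (X.code_π_ev hx ▸ e)]; exact Or.inr rfl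

end PtO

theorem IsV.EE_le {A : Subgroup G} (h : X.IsV A) (a : X.z ∈ A) : X.EE ≤ 𝒩(A) :=
  (h.pt a).choose_spec.EE_le

variable (X) [hF : Fact X.Fu]

theorem exists_sw : ∃ g : G, g * X.z * g⁻¹ = X.zp ∧ g * X.zp * g⁻¹ = X.z := by
  have i := inM_of_chk (show chk cσ = true by decide +kernel)
  obtain ⟨g, hg⟩ := X.TH_surj i.perm_mem
  refine ⟨g, ?_, ?_⟩
  · rw [← X.ev_64, ← X.zp_ev, hg.act (by norm_num), i.code_perm, show act cσ 64 = 31 by decide +kernel]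
  · rw [← X.ev_64, ← X.zp_ev, hg.act (by norm_num), i.code_perm, show act cσ 31 = 64 by decide +kernel]

/-- an element interchanging the two involutions -/
def sw : G := X.exists_sw.choose

theorem sw_z : X.sw * X.z * X.sw⁻¹ = X.zp := X.exists_sw.choose_spec.1
theorem sw_zp : X.sw * X.zp * X.sw⁻¹ = X.z := X.exists_sw.choose_spec.2

/-- the second extraspecial group -/
def EP : Subgroup G := X.EE :^ X.sw

theorem EP_sw : X.EP :^ X.sw = X.EE := by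
  rw [EP, ← conjg_mul]
  refine conjg_of_mem_norm (X.norm_EE (conj_eq_iff_commute.1 ?_).symm)
  rw [mul_inv_rev, ← mul_assoc, mul_assoc X.sw, mul_assoc X.sw, X.sw_z, X.sw_zp]

theorem esP : ES X.EP X.zp := X.sw_z ▸ X.es.conj X.sw
theorem z_EP : X.z ∈ X.EP := X.sw_zp ▸ conj_mem_conjg _ X.zp_EE

theorem norm_EP {g : G} (h : Commute X.zp g) : g ∈ 𝒩(X.EP) := by
  rw [EP, ← conjg_norm, mem_conjg]
  rw [← X.sw_z, commute_conj_left_iff] at h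
  exact X.norm_EE h

variable {X} in
theorem IsV.EP_le {A : Subgroup G} (h : X.IsV A) (a : X.zp ∈ A) : X.EP ≤ 𝒩(A) := by
  rw [EP, conjg_le_iff, conjg_norm]
  exact (h.conjg _).EE_le (by rw [mem_conjg, inv_inv, X.sw_z]; exact a)

theorem card_EP_le : Nat.card ↥(X.EE ⊓ X.EP) ≤ 128 := X.abel_le inf_le_left fun a ha b hb => by
  by_contra e
  exact X.zp_ne (mul_left_cancel ((X.esP.not_commute ha.2 hb.2 e).symm.trans (X.es.not_commute ha.1 hb.1 e)))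

theorem EE_of_EP {g : G} (h : g ∈ X.EP) (z : Commute X.z g) (e : X.π g = 1) : g ∈ X.EE :=
  mem_EE_zp z (X.esP.z_comm g h) e

theorem π_EP {g : G} (h : g ∈ X.EP) (z : Commute X.z g) : code (X.π g) ∈ R32 := by
  have a := π_SD z (X.esP.z_comm g h)
  refine mem_R32 a.1 ((smul_iff (by norm_num)).1 a.2) fun o ho => ?_
  obtain ⟨i, hi, rfl, l, l'⟩ :=
    (by decide : ∀ o ∈ O5, ∃ i < 5, o = getL O5 0 i ∧ o < 2 ^ 24 ∧ Nat.land 12 o = 12) o ho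
  obtain ⟨k, h1, -⟩ := X.five
  have p : X.PtO _ _ := ⟨_, (h1 i hi).1.1, rfl, (h1 i hi).2⟩
  exact (smul_iff l).1 ((p.norm z).1 (p.isV.EP_le (p.zp_mem.2 (by rwa [mask_unmask l])) h))

theorem surj_EP {c : ℕ} (h : c ∈ R32) : ∃ g ∈ X.EP, Commute X.z g ∧ code (X.π g) = c := by
  have a := X.card_im (K := X.EP ⊓ 𝒞[X.z]) inf_le_right
  have b : Nat.card ↥(X.EP ⊓ 𝒞[X.z]) = 4096 := by rw [← X.sw_zp, ← conjg_cent1, EP, ← conjg_inf, card_conjg, X.card_F]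
  have d := (card_le_of_le (show X.EP ⊓ 𝒞[X.z] ⊓ X.pre ⊥ ≤ X.EE ⊓ X.EP from fun g e =>
    ⟨X.EE_of_EP e.1.1 e.2.1 e.2.2, e.1.1⟩)).trans X.card_EP_le
  have e : code '' X.im (X.EP ⊓ 𝒞[X.z]) = R32.toFinset := Set.eq_of_subset_of_ncard_le (by
      rintro _ ⟨p, hp, rfl⟩
      obtain ⟨g, hg, z, rfl⟩ := X.mem_im.1 hp
      exact List.mem_toFinset.2 (X.π_EP hg.1 z)) (by
    rw [Set.ncard_image_of_injective _ code_inj, Set.ncard_coe_finset, ← Nat.card_coe_set_eq, SetLike.coe_sort_coe]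
    have := List.toFinset_card_le R32
    rw [show R32.length = 32 from rfl] at this
    nlinarith)
  obtain ⟨p, hp, rfl⟩ : c ∈ code '' X.im (X.EP ⊓ 𝒞[X.z]) := e ▸ List.mem_toFinset.2 h
  obtain ⟨g, hg, z, rfl⟩ := X.mem_im.1 hp
  exact ⟨g, hg.1, z, rfl⟩

theorem s_EP {d e b : ℕ} (hd : X.Ex d) (k : band (memL (sn d) R32) (band (allR (fun i => force (cmul (cpow cO i) d)
    fun e => bimp (Nat.beq (ap (fs e) 1544) 1544) (Nat.beq e d)) 3) (band (blt' e 4096) (band (Nat.beq (bb 1544 e) 0)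
      (Nat.beq (Nat.xor e (ap (fs d) e)) b)))) = true) : X.s b ∈ X.EP := by
  simp only [band_eq_true, memL_eq_true, blt'_eq_true, beq_iff] at k
  obtain ⟨k1, k2, k3, k4, rfl⟩ := k
  obtain ⟨g, hg, z, a⟩ := X.surj_EP k1
  obtain ⟨v, c, r⟩ := exists_rq z
  obtain rfl := r.code_eq (X.esP.z_comm g hg) hd (r.code_π ▸ a) k2
  have := conj_mem_of_mem_norm (X.norm_EP ((X.s_commute_iff (by norm_num) k3).2 k4)) hg
  rwa [r.conj_s k3, mul_mem_cancel_right hg, mul_mem_cancel_right (pow_mem X.z_EP _)] at this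

theorem EE_EP : X.SB BW 6 = X.EE ⊓ X.EP := by
  have a : X.Ex cτ := X.ex_of_word [0, 1, 1, 1, 0, 2, 1, 0, 1, 0, 0, 0, 0, 3] (by decide +kernel)
  have b : X.Ex cτ2 := X.ex_of_word [2, 1, 1, 1, 0, 2, 1, 1, 0, 1] (by decide +kernel)
  refine eq_of_le_of_card_ge (le_inf (X.SB_le _ _) (X.SB_le' (by norm_num) X.z_EP fun i hi => ?_))
    (X.card_EP_le.trans (X.card_SB (B := BW) (k := 6) (by decide +kernel)).ge)
  interval_cases i
  exacts [X.s_EP (e := 1) a (by decide +kernel), X.s_EP (e := 2) a (by decide +kernel),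
    X.s_EP (e := 4) a (by decide +kernel), X.s_EP (e := 16) a (by decide +kernel),
    X.s_EP (e := 32) a (by decide +kernel), X.s_EP (e := 2) b (by decide +kernel)]

end HM

end

end CA.J4

theorem CA.J4.realizeEqnsJ4rPt : True := by
  have := @CA.J4.HM.PtO.eq_1.{0}
  have := @CA.J4.HM.PtO.eq_def.{0}
  have := @CA.J4.HM.PtO.congr_simp.{0}
  have := @CA.J4.cσ.eq_1
  have := @CA.J4.cσ.eq_def
  have := @CA.J4.cσ.congr_simp
  have := @CA.J4.O32.eq_1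
  have := @CA.J4.O32.eq_def
  have := @CA.J4.O32.congr_simp
  have := @CA.J4.h16.eq_1
  have := @CA.J4.h16.eq_def
  have := @CA.J4.h16.congr_simp
  have := @CA.J4.R32.eq_1
  have := @CA.J4.R32.eq_def
  have := @CA.J4.R32.congr_simp
  have := @CA.J4.o60.eq_1
  have := @CA.J4.o60.eq_def
  have := @CA.J4.o60.congr_simp
  have := @CA.J4.o16.eq_1
  have := @CA.J4.o16.eq_def
  have := @CA.J4.o16.congr_simp
  have := @CA.J4.HM.zp.eq_1.{0}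
  have := @CA.J4.HM.zp.eq_def.{0}
  have := @CA.J4.HM.zp.congr_simp.{0}
  have := @CA.J4.sdg.eq_1
  have := @CA.J4.sdg.eq_def
  have := @CA.J4.sdg.congr_simp
  have := @CA.J4.O16.eq_1
  have := @CA.J4.O16.eq_def
  have := @CA.J4.O16.congr_simp
  have := @CA.J4.o32.eq_1
  have := @CA.J4.o32.eq_def
  have := @CA.J4.o32.congr_simp
  have := @CA.J4.cτ2.eq_1
  have := @CA.J4.cτ2.eq_def
  have := @CA.J4.cτ2.congr_simp
  have := @CA.J4.o40.eq_1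
  have := @CA.J4.o40.eq_def
  have := @CA.J4.o40.congr_simp
  have := @CA.J4.cτ.eq_1
  have := @CA.J4.cτ.eq_def
  have := @CA.J4.cτ.congr_simp
  have := @CA.J4.HM.sw.eq_1.{0}
  have := @CA.J4.HM.sw.eq_def.{0}
  have := @CA.J4.HM.sw.congr_simp.{0}
  have := @CA.J4.h32.eq_1
  have := @CA.J4.h32.eq_def
  have := @CA.J4.h32.congr_simp
  have := @CA.J4.HM.EP.eq_1.{0}
  have := @CA.J4.HM.EP.eq_def.{0}
  have := @CA.J4.HM.EP.congr_simp.{0}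
  have := @CA.J4.o231.eq_1
  have := @CA.J4.o231.eq_def
  have := @CA.J4.o231.congr_simp
  have := @CA.J4.h40.eq_1
  have := @CA.J4.h40.eq_def
  have := @CA.J4.h40.congr_simp
  have := @CA.J4.BW.eq_1
  have := @CA.J4.BW.eq_def
  have := @CA.J4.BW.congr_simp
  have := @CA.J4.O40.eq_1
  have := @CA.J4.O40.eq_def
  have := @CA.J4.O40.congr_simp
  trivial
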